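/-
Two orthogonal central involutions: the structure around a large extraspecial subgroup.
-/
import Cfsg.Agent.Lib.LargeES.QMap

set_option autoImplicit false
set_option linter.unusedVariables false
set_option linter.unusedSectionVars false

open scoped commutatorElement

namespace CfsgLib.LargeES

open Cfsg

variable {G : Type*} [Group G] [Finite G]

/-- `Q`, `S` extraspecial with centres `z`, `u`, each containing the other's centre. -/
structure Orth (Q S : Subgroup G) (z u : G) : Prop where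
  hQ : ESZ Q z
  hS : ESZ S u
  nQ : ∀ c, c * z = z * c → ∀ q ∈ Q, c * q * c⁻¹ ∈ Q
  nS : ∀ c, c * u = u * c → ∀ r ∈ S, c * r * c⁻¹ ∈ S
  zS : z ∈ S
  uQ : u ∈ Q
  ne : z ≠ u
  cQ : ∀ c, (∀ q ∈ Q, c * q = q * c) → c ∈ Q
  cS : ∀ c, (∀ q ∈ S, c * q = q * c) → c ∈ S

theorem Orth.symm {Q S : Subgroup G} {z u : G} (P : Orth Q S z u) : Orth S Q u z :=
  ⟨P.hS, P.hQ, P.nS, P.nQ, P.uQ, P.zS, P.ne.symm, P.cS, P.cQ⟩

/-- trivial action on the Frattini quotient forces membership -/
theorem mem_of_trivial_action {Q : Subgroup G} {z w : G} (hQ : ESZ Q z)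
    (cQ : ∀ c, (∀ q ∈ Q, c * q = q * c) → c ∈ Q)
    (h : ∀ v ∈ Q, w * v * w⁻¹ * v⁻¹ = 1 ∨ w * v * w⁻¹ * v⁻¹ = z) : w ∈ Q := by
  have hzi : z⁻¹ = z := inv_eq_of_mul_eq_one_left hQ.sq
  by_cases hall : ∀ v ∈ Q, w * v = v * w
  · exact cQ w hall
  push Not at hall
  obtain ⟨v₀, hv₀, hne⟩ := hall
  have hv₀z : w * v₀ * w⁻¹ * v₀⁻¹ = z := by
    rcases h v₀ hv₀ with h1 | h1
    · exfalso
      apply hne
      have h2 : w * v₀ * w⁻¹ = v₀ := mul_inv_eq_one.mp h1
      exact mul_inv_eq_iff_eq_mul.mp h2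
    · exact h1
  have hwz : w * z = z * w := by
    rcases h z hQ.mem with h1 | h1
    · have h2 : w * z * w⁻¹ = z := mul_inv_eq_one.mp h1
      exact mul_inv_eq_iff_eq_mul.mp h2
    · exfalso
      have h2 : w * z * w⁻¹ = z * z := mul_inv_eq_iff_eq_mul.mp h1
      rw [hQ.sq] at h2
      apply hQ.ne
      have : z = w⁻¹ * (w * z * w⁻¹) * w := by group
      rw [this, h2]; group
  set A : Subgroup G := Q ⊓ Subgroup.centralizer ({w} : Set G) with hA
  have hmemA : ∀ x, x ∈ A ↔ x ∈ Q ∧ w * x = x * w := by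
    intro x
    rw [hA, Subgroup.mem_inf, Subgroup.mem_centralizer_singleton_iff]
    constructor
    · rintro ⟨h1, h2⟩; exact ⟨h1, h2.symm⟩
    · rintro ⟨h1, h2⟩; exact ⟨h1, h2.symm⟩
  have hzA : z ∈ A := (hmemA z).mpr ⟨hQ.mem, hwz⟩
  have hv₀A : v₀ ∉ A := fun h2 => hne ((hmemA v₀).mp h2).2
  obtain ⟨q, hq, hqA, hqv⟩ := hQ.dc A inf_le_left hzA hv₀ hv₀A
  have hq' : q * v₀ * q⁻¹ = z * v₀ := mul_inv_eq_iff_eq_mul.mp hqv
  have hw' : w * v₀ * w⁻¹ = z * v₀ := mul_inv_eq_iff_eq_mul.mp hv₀z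
  have hd : q⁻¹ * w ∈ Q := by
    apply cQ
    intro v hv
    -- both act alike on v
    have key : q * v * q⁻¹ = w * v * w⁻¹ := by
      rcases h v hv with h1 | h1
      · have h2 : w * v * w⁻¹ = v := mul_inv_eq_one.mp h1
        have h3 : w * v = v * w := mul_inv_eq_iff_eq_mul.mp h2
        have := hqA v ((hmemA v).mpr ⟨hv, h3⟩)
        rw [h2, this]; group
      · have h2 : w * v * w⁻¹ = z * v := mul_inv_eq_iff_eq_mul.mp h1
        have ha : v * v₀⁻¹ ∈ A := by
          rw [hmemA]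
          refine ⟨Q.mul_mem hv (Q.inv_mem hv₀), ?_⟩
          have h3 : w * (v * v₀⁻¹) * w⁻¹ = v * v₀⁻¹ := by
            have h4 : w * v₀⁻¹ * w⁻¹ = (w * v₀ * w⁻¹)⁻¹ := by group
            calc w * (v * v₀⁻¹) * w⁻¹ = (w * v * w⁻¹) * (w * v₀⁻¹ * w⁻¹) := by group
              _ = (z * v) * (z * v₀)⁻¹ := by rw [h4, h2, hw']
              _ = z * (v * v₀⁻¹) * z⁻¹ := by group
              _ = (v * v₀⁻¹) * z * z⁻¹ := by
                  rw [hQ.cent (v * v₀⁻¹) (Q.mul_mem hv (Q.inv_mem hv₀))]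
              _ = v * v₀⁻¹ := by group
          exact mul_inv_eq_iff_eq_mul.mp h3
        have hc := hqA _ ha
        have : q * v * q⁻¹ = (v * v₀⁻¹) * (q * v₀ * q⁻¹) := by
          calc q * v * q⁻¹ = q * (v * v₀⁻¹) * v₀ * q⁻¹ := by group
            _ = (v * v₀⁻¹) * q * v₀ * q⁻¹ := by rw [hc]
            _ = (v * v₀⁻¹) * (q * v₀ * q⁻¹) := by group
        rw [this, hq', h2]
        have hv₀c : v₀⁻¹ * z * v₀ = z := by
          calc v₀⁻¹ * z * v₀ = v₀⁻¹ * (z * v₀) := by group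
            _ = v₀⁻¹ * (v₀ * z) := by rw [hQ.cent v₀ hv₀]
            _ = z := by group
        calc v * v₀⁻¹ * (z * v₀) = v * (v₀⁻¹ * z * v₀) := by group
          _ = v * z := by rw [hv₀c]
          _ = z * v := hQ.cent v hv
    calc q⁻¹ * w * v = q⁻¹ * (w * v * w⁻¹) * w := by group
      _ = q⁻¹ * (q * v * q⁻¹) * w := by rw [key]
      _ = v * (q⁻¹ * w) := by group
  have : w = q * (q⁻¹ * w) := by group
  rw [this]
  exact Q.mul_mem hq hd

namespace Orth

variable {Q S : Subgroup G} {z u : G}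

theorem zu (P : Orth Q S z u) : z * u = u * z := P.hQ.cent u P.uQ |>.symm

theorem zi (P : Orth Q S z u) : z⁻¹ = z := inv_eq_of_mul_eq_one_left P.hQ.sq

theorem ui (P : Orth Q S z u) : u⁻¹ = u := inv_eq_of_mul_eq_one_left P.hS.sq

theorem u1 (P : Orth Q S z u) : u ≠ 1 := P.hS.ne

theorem z1 (P : Orth Q S z u) : z ≠ 1 := P.hQ.ne

/-- an element of `Q` moving `u` -/
theorem exists_q (P : Orth Q S z u) : ∃ q ∈ Q, q * u * q⁻¹ = z * u := by
  have hex : ∃ q ∈ Q, u * q ≠ q * u := by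
    by_contra hno
    push Not at hno
    rcases P.hQ.center u P.uQ hno with h | h
    · exact P.u1 h
    · exact P.ne h.symm
  obtain ⟨q, hq, hne⟩ := hex
  refine ⟨q, hq, ?_⟩
  rcases P.hQ.comm q hq u P.uQ with h | h
  · exfalso
    apply hne
    have h2 : q * u * q⁻¹ = u := mul_inv_eq_one.mp h
    exact (mul_inv_eq_iff_eq_mul.mp h2).symm
  · exact mul_inv_eq_iff_eq_mul.mp h

/-- the dichotomy for elements of `Q` -/
theorem act_u (P : Orth Q S z u) {v : G} (hv : v ∈ Q) : v * u * v⁻¹ = u ∨ v * u * v⁻¹ = z * u := by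
  rcases P.hQ.comm v hv u P.uQ with h | h
  · exact Or.inl (mul_inv_eq_one.mp h)
  · exact Or.inr (mul_inv_eq_iff_eq_mul.mp h)

/-- the four-group -/
def four (P : Orth Q S z u) : Subgroup G := fourGroup P.hQ.sq P.hS.sq P.zu

theorem mem_four (P : Orth Q S z u) {x : G} : x ∈ P.four ↔ x = 1 ∨ x = z ∨ x = u ∨ x = z * u := Iff.rfl

theorem four_le_Q (P : Orth Q S z u) : P.four ≤ Q := by
  rintro x (rfl | rfl | rfl | rfl)
  · exact Q.one_mem
  · exact P.hQ.mem
  · exact P.uQ
  · exact Q.mul_mem P.hQ.mem P.uQ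

/-- Elements of `Q` centralizing the centralizer of `u` in `Q` lie in the four-group. -/
theorem mem_four_of_cent (P : Orth Q S z u) {d : G} (hd : d ∈ Q)
    (h : ∀ p ∈ Q, p * u = u * p → d * p = p * d) : d ∈ P.four := by
  by_contra hn
  obtain ⟨q, hq, hqA, hqd⟩ := P.hQ.dc P.four P.four_le_Q (Or.inr (Or.inl rfl)) hd hn
  have hqu : q * u = u * q := hqA u (Or.inr (Or.inr (Or.inl rfl)))
  have := h q hq hqu
  have h2 : q * d * q⁻¹ = d := by rw [← this]; group
  rw [h2, mul_inv_cancel] at hqd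
  exact P.z1 hqd.symm

/-- Kernel of the action of `C_S(z)` on `C_Q(u)` modulo `z`. -/
theorem kernel (P : Orth Q S z u) {w : G} (hw : w ∈ S) (hwz : w * z = z * w)
    (hk : ∀ p ∈ Q, p * u = u * p → w * p * w⁻¹ * p⁻¹ = 1 ∨ w * p * w⁻¹ * p⁻¹ = z) : w ∈ Q := by
  have hwu : w * u = u * w := P.hS.cent w hw
  have hzz := P.hQ.sq
  have huu := P.hS.sq
  have hzi := P.zi
  apply mem_of_trivial_action P.hQ P.cQ
  intro v hv
  rcases P.act_u hv with h0 | h0
  · exact hk v hv (mul_inv_eq_iff_eq_mul.mp h0)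
  · -- v moves u
    have hvw : w * v * w⁻¹ ∈ Q := P.nQ w hwz v hv
    set d := v⁻¹ * (w * v * w⁻¹) with hd
    have hdQ : d ∈ Q := Q.mul_mem (Q.inv_mem hv) hvw
    have hwv : w * v * w⁻¹ = v * d := by rw [hd]; group
    have hwzu : w * (z * u) * w⁻¹ = z * u := by
      have e1 : w * z * w⁻¹ = z := by rw [hwz]; group
      have e2 : w * u * w⁻¹ = u := by rw [hwu]; group
      calc w * (z * u) * w⁻¹ = (w * z * w⁻¹) * (w * u * w⁻¹) := by group
        _ = z * u := by rw [e1, e2]
    have hvi : v⁻¹ * (z * u) * v = u := by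
      calc v⁻¹ * (z * u) * v = v⁻¹ * (v * u * v⁻¹) * v := by rw [h0]
        _ = u := by group
    have hdu : d * u = u * d := by
      have h1 : (w * v * w⁻¹) * u * (w * v * w⁻¹)⁻¹ = z * u := by
        have e : (w * v * w⁻¹) * u * (w * v * w⁻¹)⁻¹ = w * (v * (w⁻¹ * u * w) * v⁻¹) * w⁻¹ := by group
        have e2 : w⁻¹ * u * w = u := by
          calc w⁻¹ * u * w = w⁻¹ * (u * w) := by group
            _ = w⁻¹ * (w * u) := by rw [hwu]
            _ = u := by group
        rw [e, e2, h0, hwzu]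
      have h2 : d * u * d⁻¹ = u := by
        have e : d * u * d⁻¹ = v⁻¹ * ((w * v * w⁻¹) * u * (w * v * w⁻¹)⁻¹) * v := by rw [hd]; group
        rw [e, h1, hvi]
      exact mul_inv_eq_iff_eq_mul.mp h2
    -- d centralizes C_Q(u)
    have hdp : ∀ p ∈ Q, p * u = u * p → d * p = p * d := by
      intro p hp hpu
      have e1 := hk p hp hpu
      have e2 := P.hQ.comm v hv p hp
      have e3 := P.hQ.comm d hdQ p hp
      obtain ⟨ε, hε, hεe⟩ : ∃ ε, (ε = 1 ∨ ε = z) ∧ w * p * w⁻¹ = ε * p := by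
        rcases e1 with e | e
        · exact ⟨1, Or.inl rfl, by rw [one_mul]; exact mul_inv_eq_one.mp e⟩
        · exact ⟨z, Or.inr rfl, mul_inv_eq_iff_eq_mul.mp e⟩
      have hεc : ∀ t ∈ Q, t * ε = ε * t := by
        intro t ht
        rcases hε with h' | h'
        · rw [h']; simp
        · rw [h']; exact P.hQ.cent t ht
      set κ := v * p * v⁻¹ * p⁻¹ with hκ
      set δ := d * p * d⁻¹ * p⁻¹ with hδ
      have hκQ : κ = 1 ∨ κ = z := e2
      have hδv : δ = 1 ∨ δ = z := e3
      have hκw : w * κ * w⁻¹ = κ := by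
        rcases hκQ with h' | h'
        · rw [h']; group
        · rw [h', hwz]; group
      have hδc : ∀ t ∈ Q, t * δ = δ * t := by
        intro t ht
        rcases hδv with h' | h'
        · rw [h']; simp
        · rw [h']; exact P.hQ.cent t ht
      have hdp' : d * p * d⁻¹ = δ * p := by rw [hδ]; group
      have hid : w * κ * w⁻¹ = δ * κ := by
        calc w * κ * w⁻¹ = (w * v * w⁻¹) * (w * p * w⁻¹) * (w * v * w⁻¹)⁻¹ * (w * p * w⁻¹)⁻¹ := by
              rw [hκ]; group
          _ = (v * d) * (ε * p) * (v * d)⁻¹ * (ε * p)⁻¹ := by rw [hwv, hεe]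
          _ = v * (d * (ε * p)) * d⁻¹ * v⁻¹ * (ε * p)⁻¹ := by group
          _ = v * (d * ε) * p * d⁻¹ * v⁻¹ * (ε * p)⁻¹ := by group
          _ = v * (ε * d) * p * d⁻¹ * v⁻¹ * (ε * p)⁻¹ := by rw [hεc d hdQ]
          _ = (v * ε) * (d * p * d⁻¹) * v⁻¹ * (ε * p)⁻¹ := by group
          _ = (ε * v) * (δ * p) * v⁻¹ * (ε * p)⁻¹ := by rw [hεc v hv, hdp']
          _ = ε * (v * δ) * p * v⁻¹ * (ε * p)⁻¹ := by group
          _ = ε * (δ * v) * p * v⁻¹ * (ε * p)⁻¹ := by rw [hδc v hv]
          _ = ε * δ * (v * p * v⁻¹) * p⁻¹ * ε⁻¹ := by group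
          _ = ε * δ * (κ * p) * p⁻¹ * ε⁻¹ := by
              have : v * p * v⁻¹ = κ * p := by rw [hκ]; group
              rw [this]
          _ = ε * (δ * κ) * ε⁻¹ := by group
          _ = δ * κ := by
              have hmem : δ * κ ∈ Q := by
                rcases hδv with h' | h' <;> rcases hκQ with h'' | h'' <;> rw [h', h'']
                · simp
                · simpa using P.hQ.mem
                · simpa using P.hQ.mem
                · rw [hzz]; exact Q.one_mem
              rcases hε with h' | h'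
              · rw [h']; simp
              · rw [h', P.hQ.cent _ hmem |>.symm]; group
      rw [hκw] at hid
      have hδ1 : δ = 1 :=
        mul_right_cancel (b := κ) (a := δ) (c := 1) (by rw [one_mul]; exact hid.symm)
      have h3 : d * p * d⁻¹ = p := by rw [hdp', hδ1, one_mul]
      exact mul_inv_eq_iff_eq_mul.mp h3
    have hd4 := P.mem_four_of_cent hdQ hdp
    -- exclude u and zu
    have hsq : (v * d) * (v * d) = v * v := by
      have e : (w * v * w⁻¹) * (w * v * w⁻¹) = w * (v * v) * w⁻¹ := by group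
      rw [hwv] at e
      rw [e]
      rcases P.hQ.sqq v hv with h' | h'
      · rw [h']; group
      · rw [h', hwz]; group
    have hvui : v⁻¹ * u * v = z * u := by
      have e3 : z * (z * u) = u := by rw [← mul_assoc, hzz, one_mul]
      have : v⁻¹ * u * v = v⁻¹ * (z * (z * u)) * v := by rw [e3]
      rw [this]
      calc v⁻¹ * (z * (z * u)) * v = (v⁻¹ * z * v) * (v⁻¹ * (z * u) * v) := by group
        _ = z * u := by
            have : v⁻¹ * z * v = z := by
              calc v⁻¹ * z * v = v⁻¹ * (z * v) := by group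
                _ = v⁻¹ * (v * z) := by rw [P.hQ.cent v hv]
                _ = z := by group
            rw [this, hvi]
    have hcontra : ∀ e, (v * e) * (v * e) = v * v → v⁻¹ * e * v * e = z → False := by
      intro e h1 h2
      have : (v * e) * (v * e) = (v * v) * (v⁻¹ * e * v * e) := by group
      rw [this, h2] at h1
      have := mul_left_cancel (a := v * v) (b := z) (c := 1) (by rw [h1, mul_one])
      exact P.z1 this
    have hfin : d = 1 ∨ d = z := by
      rcases hd4 with h' | h' | h' | h'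
      · exact Or.inl h'
      · exact Or.inr h'
      · exfalso
        rw [h'] at hsq
        apply hcontra u hsq
        rw [hvui, mul_assoc, huu, mul_one]
      · exfalso
        rw [h'] at hsq
        apply hcontra (z * u) hsq
        rw [hvi, ← mul_assoc, ← P.zu, mul_assoc z u u, huu, mul_one]
    have e : w * v * w⁻¹ * v⁻¹ = v * d * v⁻¹ := by rw [hwv]
    rw [e]
    rcases hfin with h' | h'
    · left; rw [h']; group
    · right; rw [h', P.hQ.cent v hv]; group

end Orth

end CfsgLib.LargeES
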