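/-
Two orthogonal central involutions: the subgroup `R`.
-/
import Cfsg.Agent.Lib.LargeES.Orth

set_option autoImplicit false
set_option linter.unusedVariables false
set_option linter.unusedSectionVars false

open scoped commutatorElement

namespace CfsgLib.LargeES

open Cfsg

variable {G : Type*} [Group G] [Finite G]

theorem orth_of_large (Q : Subgroup G) (hQ : IsLargeExtraspecial Q) (z : G)
    (hz : ((Subgroup.center ↥Q).map Q.subtype) = Subgroup.zpowers z) (hz2 : orderOf z = 2)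
    (w : ℕ) (hw : 2 ≤ w) (hcard : Nat.card ↥Q = 2 ^ (2 * w + 1)) (g : G)
    (hgH : g ∉ Subgroup.centralizer ({z} : Set G)) (hgQ : g * z * g⁻¹ ∈ Q) :
    Orth Q (Q.map (MulAut.conj g).toMonoidHom) z (g * z * g⁻¹) := by
  obtain ⟨hL1, hL2, hL3, -⟩ := hQ
  have hzz : z * z = 1 := by
    have := pow_orderOf_eq_one z
    rwa [hz2, pow_two] at this
  have hz1 : z ≠ 1 := by
    rintro rfl
    simp at hz2
  have hzm : z ∈ (Subgroup.center ↥Q).map Q.subtype := by
    rw [hz]; exact Subgroup.mem_zpowers z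
  have hzQ : z ∈ Q := by
    obtain ⟨c, -, rfl⟩ := hzm
    exact c.2
  have hcent : ∀ a ∈ Q, a * z = z * a := by
    intro a ha
    obtain ⟨c, hc, rfl⟩ := hzm
    have := (Subgroup.mem_center_iff.mp hc) ⟨a, ha⟩
    exact congrArg Subtype.val this
  have hzb : ESZ Q z := ESZ.of_ext hL1 hzQ hz1 hcent
  have hN : ∀ c, c * z = z * c → ∀ q ∈ Q, c * q * c⁻¹ ∈ Q := by
    intro c hc q hq
    have hcc : c ∈ Subgroup.centralizer ((Subgroup.center ↥Q).map Q.subtype : Set G) := by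
      rw [Subgroup.mem_centralizer_iff, hz]
      intro h hh
      obtain ⟨k, rfl⟩ := Subgroup.mem_zpowers_iff.mp hh
      have hcomm : Commute c z := hc
      exact ((hcomm.zpow_right k).eq).symm
    exact (Subgroup.mem_normalizer_iff.mp (hL3 hcc) q).mp hq
  have hC : ∀ c, (∀ q ∈ Q, c * q = q * c) → c ∈ Q := by
    intro c hc
    have hcc : c ∈ Subgroup.centralizer (Q : Set G) := by
      rw [Subgroup.mem_centralizer_iff]
      intro h hh
      exact (hc h hh).symm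
    rw [hL2] at hcc
    obtain ⟨d, -, rfl⟩ := hcc
    exact d.2
  have h8 : 8 < Nat.card Q := by
    rw [hcard]
    calc 8 < 2 ^ 5 := by norm_num
      _ ≤ 2 ^ (2 * w + 1) := Nat.pow_le_pow_right (by norm_num) (by omega)
  have hne : z ≠ g * z * g⁻¹ := by
    intro h
    apply hgH
    rw [Subgroup.mem_centralizer_singleton_iff]
    have h2 : g * z = z * g := by
      have := mul_inv_eq_iff_eq_mul.mp h.symm
      exact this
    exact h2
  have hzS := sym_rev hL1 hzb hN hC h8 hgQ hne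
  have P := pair_of hzb hN hzS hne
  refine ⟨hzb, P.hR, hN, P.nR, hzS, hgQ, hne, hC, ?_⟩
  intro c hc
  rw [mem_conj_map]
  apply hC
  intro q hq
  have hq' : g * q * g⁻¹ ∈ Q.map (MulAut.conj g).toMonoidHom := by
    rw [mem_conj_map]
    have : g⁻¹ * (g * q * g⁻¹) * g = q := by group
    rwa [this]
  have h1 := hc _ hq'
  have h2 : g⁻¹ * (c * (g * q * g⁻¹)) * g = g⁻¹ * (g * q * g⁻¹ * c) * g := by rw [h1]
  calc g⁻¹ * c * g * q = g⁻¹ * (c * (g * q * g⁻¹)) * g := by group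
    _ = g⁻¹ * (g * q * g⁻¹ * c) * g := h2
    _ = q * (g⁻¹ * c * g) := by group

namespace Orth

variable {Q S : Subgroup G} {z u : G}

/-- `C_S(z)` -/
abbrev WW (S : Subgroup G) (z : G) : Subgroup G := S ⊓ Subgroup.centralizer ({z} : Set G)

theorem mem_WW {x : G} : x ∈ WW S z ↔ x ∈ S ∧ x * z = z * x := by
  rw [Subgroup.mem_inf, Subgroup.mem_centralizer_singleton_iff]

theorem mem_four_iff (P : Orth Q S z u) {x : G} : x ∈ Subgroup.closure ({z, u} : Set G) ↔ x ∈ P.four := by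
  constructor
  · intro h
    have : Subgroup.closure ({z, u} : Set G) ≤ P.four := by
      rw [Subgroup.closure_le]
      rintro y (rfl | rfl)
      · exact Or.inr (Or.inl rfl)
      · exact Or.inr (Or.inr (Or.inl rfl))
    exact this h
  · have hz : z ∈ Subgroup.closure ({z, u} : Set G) := Subgroup.subset_closure (by simp)
    have hu : u ∈ Subgroup.closure ({z, u} : Set G) := Subgroup.subset_closure (by simp)
    rintro (rfl | rfl | rfl | rfl)
    · exact Subgroup.one_mem _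
    · exact hz
    · exact hu
    · exact Subgroup.mul_mem _ hz hu

theorem two_inter (P : Orth Q S z u) {a : G} (h1 : a = 1 ∨ a = z) (h2 : a = 1 ∨ a = u) : a = 1 := by
  rcases h1 with h1 | h1
  · exact h1
  · rcases h2 with h2 | h2
    · exact h2
    · exact absurd (h1.symm.trans h2) P.ne

theorem z_mem_E (P : Orth Q S z u) : z ∈ Q ⊓ S := ⟨P.hQ.mem, P.zS⟩

theorem u_mem_E (P : Orth Q S z u) : u ∈ Q ⊓ S := ⟨P.uQ, P.hS.mem⟩

theorem comm_WQ (P : Orth Q S z u) {p w : G} (hp : p ∈ WW Q u) (hw : w ∈ WW S z) :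
    p * w * p⁻¹ * w⁻¹ ∈ Q ⊓ S := by
  obtain ⟨hp1, hp2⟩ := mem_WW.mp hp
  obtain ⟨hw1, hw2⟩ := mem_WW.mp hw
  constructor
  · have e : p * w * p⁻¹ * w⁻¹ = p * (w * p⁻¹ * w⁻¹) := by group
    rw [e]
    exact Q.mul_mem hp1 (P.nQ w hw2 _ (Q.inv_mem hp1))
  · exact S.mul_mem (P.nS p hp2 w hw1) (S.inv_mem hw1)

theorem E_le_W (P : Orth Q S z u) : Q ⊓ S ≤ WW S z := fun e he =>
  mem_WW.mpr ⟨he.2, P.hQ.cent e he.1⟩

theorem E_le_Q2 (P : Orth Q S z u) : Q ⊓ S ≤ WW Q u := fun e he =>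
  mem_WW.mpr ⟨he.1, P.hS.cent e he.2⟩

theorem W_norm_E (P : Orth Q S z u) {w e : G} (hw : w ∈ WW S z) (he : e ∈ Q ⊓ S) : w * e * w⁻¹ ∈ Q ⊓ S := by
  obtain ⟨hw1, hw2⟩ := mem_WW.mp hw
  exact ⟨P.nQ w hw2 e he.1, S.mul_mem (S.mul_mem hw1 he.2) (S.inv_mem hw1)⟩

theorem Q2_norm_E (P : Orth Q S z u) {p e : G} (hp : p ∈ WW Q u) (he : e ∈ Q ⊓ S) : p * e * p⁻¹ ∈ Q ⊓ S := by
  obtain ⟨hp1, hp2⟩ := mem_WW.mp hp
  exact ⟨Q.mul_mem (Q.mul_mem hp1 he.1) (Q.inv_mem hp1), P.nS p hp2 e he.2⟩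

theorem W_sq (P : Orth Q S z u) {w w' : G} (hw : w ∈ WW S z) (hw' : w' ∈ WW S z) :
    w * w' * w⁻¹ * w'⁻¹ ∈ Q ⊓ S := by
  rcases P.hS.comm w hw.1 w' hw'.1 with h | h
  · rw [h]; exact Subgroup.one_mem _
  · rw [h]; exact P.u_mem_E

theorem Q2_sq (P : Orth Q S z u) {p p' : G} (hp : p ∈ WW Q u) (hp' : p' ∈ WW Q u) :
    p * p' * p⁻¹ * p'⁻¹ ∈ Q ⊓ S := by
  rcases P.hQ.comm p hp.1 p' hp'.1 with h | h
  · rw [h]; exact Subgroup.one_mem _
  · rw [h]; exact P.z_mem_E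

/-- Decomposition of the join. -/
theorem decomp (P : Orth Q S z u) {x : G} (hx : x ∈ WW S z ⊔ WW Q u) : ∃ w ∈ WW S z, ∃ p ∈ WW Q u, x = w * p := by
  let T : Subgroup G := finSub (fun x => ∃ w ∈ WW S z, ∃ p ∈ WW Q u, x = w * p)
    ⟨1, Subgroup.one_mem _, 1, Subgroup.one_mem _, by simp⟩ (by
      rintro a b ⟨w, hw, p, hp, rfl⟩ ⟨w', hw', p', hp', rfl⟩
      refine ⟨w * ((p * w' * p⁻¹ * w'⁻¹) * w'), ?_, p * p', Subgroup.mul_mem _ hp hp', by group⟩
      exact Subgroup.mul_mem _ hw (Subgroup.mul_mem _ (P.E_le_W (P.comm_WQ hp hw')) hw'))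
  have hle : WW S z ⊔ WW Q u ≤ T := by
    apply sup_le
    · intro w hw
      exact ⟨w, hw, 1, Subgroup.one_mem _, by simp⟩
    · intro p hp
      exact ⟨1, Subgroup.one_mem _, p, hp, by simp⟩
  exact hle hx

theorem R_comm (P : Orth Q S z u) {x y : G} (hx : x ∈ WW S z ⊔ WW Q u) (hy : y ∈ WW S z ⊔ WW Q u) :
    x * y * x⁻¹ * y⁻¹ ∈ Q ⊓ S := by
  obtain ⟨w, hw, p, hp, rfl⟩ := P.decomp hx
  obtain ⟨w', hw', p', hp', rfl⟩ := P.decomp hy
  have hid : (w * p) * (w' * p') * (w * p)⁻¹ * (w' * p')⁻¹ =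
      (w * (p * w' * p⁻¹ * w'⁻¹) * w⁻¹) * ((w * w') * (p * p' * p⁻¹ * p'⁻¹) * (w * w')⁻¹) *
        (w * w' * w⁻¹ * w'⁻¹) * (w' * (p' * w * p'⁻¹ * w⁻¹)⁻¹ * w'⁻¹) := by group
  rw [hid]
  refine Subgroup.mul_mem _ (Subgroup.mul_mem _ (Subgroup.mul_mem _ ?_ ?_) ?_) ?_
  · exact P.W_norm_E hw (P.comm_WQ hp hw')
  · exact P.W_norm_E (Subgroup.mul_mem _ hw hw') (P.Q2_sq hp hp')
  · exact P.W_sq hw hw'
  · exact P.W_norm_E hw' (Subgroup.inv_mem _ (P.comm_WQ hp' hw))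

theorem R_sq (P : Orth Q S z u) {x : G} (hx : x ∈ WW S z ⊔ WW Q u) : x ^ 2 ∈ Q ⊓ S := by
  obtain ⟨w, hw, p, hp, rfl⟩ := P.decomp hx
  have hid : (w * p) ^ 2 = (w * (p * w * p⁻¹ * w⁻¹) * w⁻¹) * (w * w) * (p * p) := by
    rw [pow_two]; group
  rw [hid]
  refine Subgroup.mul_mem _ (Subgroup.mul_mem _ (P.W_norm_E hw (P.comm_WQ hp hw)) ?_) ?_
  · rcases P.hS.sqq w hw.1 with h | h
    · rw [h]; exact Subgroup.one_mem _
    · rw [h]; exact P.u_mem_E
  · rcases P.hQ.sqq p hp.1 with h | h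
    · rw [h]; exact Subgroup.one_mem _
    · rw [h]; exact P.z_mem_E

theorem E_abelian (P : Orth Q S z u) {a b : G} (ha : a ∈ Q ⊓ S) (hb : b ∈ Q ⊓ S) : a * b = b * a := by
  have h1 := P.hQ.comm a ha.1 b hb.1
  have h2 := P.hS.comm a ha.2 b hb.2
  have h3 := P.two_inter h1 h2
  have h4 : a * b * a⁻¹ = b := mul_inv_eq_one.mp h3
  exact mul_inv_eq_iff_eq_mul.mp h4

theorem E_sq (P : Orth Q S z u) {a : G} (ha : a ∈ Q ⊓ S) : a * a = 1 :=
  P.two_inter (P.hQ.sqq a ha.1) (P.hS.sqq a ha.2)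

/-- Elements of `X` normalize the four-group and move `E` inside it. -/
theorem act_E (P : Orth Q S z u) {X : Subgroup G} (hX : X = Q ⊔ S) :
    ∀ x ∈ X, (∀ v ∈ P.four, x * v * x⁻¹ ∈ P.four) ∧ ∀ e ∈ Q ⊓ S, x * e * x⁻¹ * e⁻¹ ∈ P.four := by
  have hzz := P.hQ.sq
  have huu := P.hS.sq
  let T : Subgroup G := finSub (fun x => (∀ v ∈ P.four, x * v * x⁻¹ ∈ P.four) ∧ ∀ e ∈ Q ⊓ S, x * e * x⁻¹ * e⁻¹ ∈ P.four)
    ⟨fun v hv => by simpa using hv, fun e _ => by simp [Subgroup.one_mem]⟩ (by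
      rintro a b ⟨ha1, ha2⟩ ⟨hb1, hb2⟩
      refine ⟨fun v hv => ?_, fun e he => ?_⟩
      · have e1 : a * b * v * (a * b)⁻¹ = a * (b * v * b⁻¹) * a⁻¹ := by group
        rw [e1]
        exact ha1 _ (hb1 v hv)
      · have e1 : a * b * e * (a * b)⁻¹ * e⁻¹ = a * (b * e * b⁻¹ * e⁻¹) * a⁻¹ * (a * e * a⁻¹ * e⁻¹) := by group
        rw [e1]
        exact Subgroup.mul_mem _ (ha1 _ (hb2 e he)) (ha2 e he))
  have hle : X ≤ T := by
    rw [hX]
    apply sup_le
    · intro q hq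
      have h4 : ∀ v ∈ P.four, v ∈ Q := fun v hv => P.four_le_Q hv
      refine ⟨fun v hv => ?_, fun e he => ?_⟩
      · rcases P.hQ.comm q hq v (h4 v hv) with h | h
        · have h2 : q * v * q⁻¹ = v := mul_inv_eq_one.mp h
          rwa [h2]
        · have h2 : q * v * q⁻¹ = z * v := mul_inv_eq_iff_eq_mul.mp h
          rw [h2]
          exact Subgroup.mul_mem _ (Or.inr (Or.inl rfl)) hv
      · rcases P.hQ.comm q hq e he.1 with h | h
        · rw [h]; exact Subgroup.one_mem _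
        · rw [h]; exact Or.inr (Or.inl rfl)
    · intro r hr
      have h4 : ∀ v ∈ P.four, v ∈ S := by
        rintro v (rfl | rfl | rfl | rfl)
        · exact S.one_mem
        · exact P.zS
        · exact P.hS.mem
        · exact S.mul_mem P.zS P.hS.mem
      refine ⟨fun v hv => ?_, fun e he => ?_⟩
      · rcases P.hS.comm r hr v (h4 v hv) with h | h
        · have h2 : r * v * r⁻¹ = v := mul_inv_eq_one.mp h
          rwa [h2]
        · have h2 : r * v * r⁻¹ = u * v := mul_inv_eq_iff_eq_mul.mp h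
          rw [h2]
          exact Subgroup.mul_mem _ (Or.inr (Or.inr (Or.inl rfl))) hv
      · rcases P.hS.comm r hr e he.2 with h | h
        · rw [h]; exact Subgroup.one_mem _
        · rw [h]; exact Or.inr (Or.inr (Or.inl rfl))
  exact fun x hx => hle hx

/-- The centre of `R`. -/
theorem center_R (P : Orth Q S z u) :
    (Subgroup.center ↥(WW S z ⊔ WW Q u)).map (WW S z ⊔ WW Q u).subtype = Subgroup.closure ({z, u} : Set G) := by
  ext c
  rw [P.mem_four_iff]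
  constructor
  · rintro ⟨⟨c, hcR⟩, hcc, rfl⟩
    show c ∈ P.four
    obtain ⟨w, hw, p, hp, rfl⟩ := P.decomp hcR
    have hcomm : ∀ t ∈ WW S z ⊔ WW Q u, (w * p) * t = t * (w * p) := by
      intro t ht
      have := (Subgroup.mem_center_iff.mp hcc) ⟨t, ht⟩
      exact (congrArg Subtype.val this).symm
    obtain ⟨hw1, hw2⟩ := mem_WW.mp hw
    obtain ⟨hp1, hp2⟩ := mem_WW.mp hp
    have hwQ : w ∈ Q := by
      apply P.kernel hw1 hw2
      intro p' hp' hp'u
      have hp'R : p' ∈ WW S z ⊔ WW Q u := Subgroup.mem_sup_right (mem_WW.mpr ⟨hp', hp'u⟩)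
      have h1 := hcomm p' hp'R
      have h2 : w * (p * p' * p⁻¹) * w⁻¹ = p' := by
        calc w * (p * p' * p⁻¹) * w⁻¹ = ((w * p) * p') * (w * p)⁻¹ := by group
          _ = (p' * (w * p)) * (w * p)⁻¹ := by rw [h1]
          _ = p' := by group
      rcases P.hQ.comm p hp1 p' hp' with h | h
      · left
        have h3 : p * p' * p⁻¹ = p' := mul_inv_eq_one.mp h
        rw [h3] at h2
        rw [h2]; group
      · right
        have h3 : p * p' * p⁻¹ = z * p' := mul_inv_eq_iff_eq_mul.mp h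
        rw [h3] at h2
        have h4 : w * (z * p') * w⁻¹ = z * (w * p' * w⁻¹) := by
          calc w * (z * p') * w⁻¹ = (w * z) * p' * w⁻¹ := by group
            _ = (z * w) * p' * w⁻¹ := by rw [hw2]
            _ = z * (w * p' * w⁻¹) := by group
        rw [h4] at h2
        calc w * p' * w⁻¹ * p'⁻¹ = z⁻¹ * (z * (w * p' * w⁻¹)) * p'⁻¹ := by group
          _ = z⁻¹ * p' * p'⁻¹ := by rw [h2]
          _ = z := by rw [P.zi]; group
    have hpS : p ∈ S := by
      apply P.symm.kernel hp1 hp2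
      intro w' hw' hw'z
      have hw'R : w' ∈ WW S z ⊔ WW Q u := Subgroup.mem_sup_left (mem_WW.mpr ⟨hw', hw'z⟩)
      have h1 := hcomm w' hw'R
      have h2 : p * w' * p⁻¹ = w⁻¹ * w' * w := by
        calc p * w' * p⁻¹ = w⁻¹ * (((w * p) * w') * (w * p)⁻¹) * w := by group
          _ = w⁻¹ * ((w' * (w * p)) * (w * p)⁻¹) * w := by rw [h1]
          _ = w⁻¹ * w' * w := by group
      rw [h2]
      rcases P.hS.comm w⁻¹ (S.inv_mem hw1) w' hw' with h | h
      · left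
        have e : w⁻¹ * w' * w * w'⁻¹ = w⁻¹ * w' * w⁻¹⁻¹ * w'⁻¹ := by group
        rw [e]; exact h
      · right
        have e : w⁻¹ * w' * w * w'⁻¹ = w⁻¹ * w' * w⁻¹⁻¹ * w'⁻¹ := by group
        rw [e]; exact h
    have hcQ : w * p ∈ Q := Q.mul_mem hwQ hp1
    apply P.mem_four_of_cent hcQ
    intro t ht htu
    exact hcomm t (Subgroup.mem_sup_right (mem_WW.mpr ⟨ht, htu⟩))
  · intro hc
    have hzR : z ∈ WW S z ⊔ WW Q u := Subgroup.mem_sup_left (mem_WW.mpr ⟨P.zS, rfl⟩)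
    have huR : u ∈ WW S z ⊔ WW Q u := Subgroup.mem_sup_right (mem_WW.mpr ⟨P.uQ, rfl⟩)
    have hcR : c ∈ WW S z ⊔ WW Q u := by
      rcases hc with rfl | rfl | rfl | rfl
      · exact Subgroup.one_mem _
      · exact hzR
      · exact huR
      · exact Subgroup.mul_mem _ hzR huR
    refine ⟨⟨c, hcR⟩, Subgroup.mem_center_iff.mpr ?_, rfl⟩
    rintro ⟨t, ht⟩
    apply Subtype.ext
    show t * c = c * t
    have htz : t * z = z * t := by
      obtain ⟨w, hw, p, hp, rfl⟩ := P.decomp ht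
      have h1 := (mem_WW.mp hw).2
      have h2 := P.hQ.cent p hp.1
      calc w * p * z = w * (p * z) := by group
        _ = w * (z * p) := by rw [h2]
        _ = (w * z) * p := by group
        _ = (z * w) * p := by rw [h1]
        _ = z * (w * p) := by group
    have htu : t * u = u * t := by
      obtain ⟨w, hw, p, hp, rfl⟩ := P.decomp ht
      have h1 := P.hS.cent w hw.1
      have h2 := (mem_WW.mp hp).2
      calc w * p * u = w * (p * u) := by group
        _ = w * (u * p) := by rw [h2]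
        _ = (w * u) * p := by group
        _ = (u * w) * p := by rw [h1]
        _ = u * (w * p) := by group
    have ca : Commute t z := htz
    have cb : Commute t u := htu
    rcases hc with rfl | rfl | rfl | rfl
    · simp
    · exact htz
    · exact htu
    · exact (ca.mul_right cb).eq

end Orth

end CfsgLib.LargeES
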