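/-
A section of an extraspecial centralizer: the element-level facts.
-/
import Cfsg.Agent.Lib.LargeES.OrthR
import Cfsg.Agent.Lib.H3.Comp2
import Cfsg.Agent.Lib.FGS.ElemAb
import Cfsg.Agent.Lib.SS.Misc

set_option autoImplicit false
set_option linter.unusedVariables false
set_option linter.unusedSectionVars false

namespace CfsgLib.LargeES

open Cfsg

theorem extraspecial_of_elts {H : Type*} [Group H] [Finite H] (z : H) (hz1 : z ≠ 1) (hzz : z * z = 1)
    (hzc : ∀ a : H, a * z = z * a)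
    (hcomm : ∀ a b : H, a * b * a⁻¹ * b⁻¹ = 1 ∨ a * b * a⁻¹ * b⁻¹ = z)
    (hsq : ∀ a : H, a * a = 1 ∨ a * a = z)
    (hcen : ∀ c : H, (∀ a : H, c * a = a * c) → c = 1 ∨ c = z)
    (hna : ∃ a b : H, a * b * a⁻¹ * b⁻¹ = z) : IsExtraspecial 2 H := by
  haveI : Fact (Nat.Prime 2) := ⟨Nat.prime_two⟩
  have hzC : z ∈ Subgroup.center H := Subgroup.mem_center_iff.mpr (fun a => hzc a)
  have hp : IsPGroup 2 H := by
    intro a
    refine ⟨2, ?_⟩
    have e : a ^ 2 ^ 2 = (a * a) * (a * a) := by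
      rw [show (2 : ℕ) ^ 2 = 1 + 1 + 1 + 1 by norm_num]
      simp only [pow_succ, pow_zero, one_mul, mul_assoc]
    rw [e]
    rcases hsq a with h | h
    · rw [h, one_mul]
    · rw [h, hzz]
  haveI hnil : Group.IsNilpotent H := hp.isNilpotent
  have hcl : commutator H ≤ Subgroup.center H := by
    rw [commutator_def, Subgroup.commutator_le]
    intro a _ b _
    rw [commutatorElement_def]
    rcases hcomm a b with h | h
    · rw [h]; exact Subgroup.one_mem _
    · rw [h]; exact hzC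
  have hcg : Subgroup.center H ≤ commutator H := by
    intro c hc
    rcases hcen c (fun a => (Subgroup.mem_center_iff.mp hc a).symm) with rfl | rfl
    · exact Subgroup.one_mem _
    · obtain ⟨a, b, hab⟩ := hna
      rw [commutator_def, ← hab]
      exact Subgroup.commutator_mem_commutator (Subgroup.mem_top a) (Subgroup.mem_top b)
  have hfl : frattini H ≤ Subgroup.center H := by
    apply CfsgLib.FGS.ElemAb.frattini_le_of_quotient 2
    · intro x y
      rcases hcomm x y with h | h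
      · rw [h]; exact Subgroup.one_mem _
      · rw [h]; exact hzC
    · intro x
      rw [pow_two]
      rcases hsq x with h | h
      · rw [h]; exact Subgroup.one_mem _
      · rw [h]; exact hzC
  have hfg : Subgroup.center H ≤ frattini H :=
    le_trans hcg CfsgLib.SS.commutator_le_frattini_of_nilpotent
  refine ⟨⟨hp, le_antisymm hfl hfg, le_antisymm hcl hcg⟩, ?_⟩
  rw [Nat.card_eq_two_iff]
  refine ⟨1, ⟨z, hzC⟩, fun h => hz1 (congrArg Subtype.val h).symm, ?_⟩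
  ext ⟨c, hc⟩
  simp only [Set.mem_insert_iff, Set.mem_singleton_iff, Set.mem_univ, iff_true]
  rcases hcen c (fun a => (Subgroup.mem_center_iff.mp hc a).symm) with h | h
  · left
    exact Subtype.ext h
  · right
    exact Subtype.ext h

variable {G : Type*} [Group G] [Finite G]

/-- Consequences of the generalized Fitting hypothesis. -/
theorem gfit_facts {z : G} (hz : orderOf z = 2) {Q : Subgroup G} (hQC : Q ≤ Subgroup.centralizer ({z} : Set G))
    (hF : (Cfsg.generalizedFittingSubgroup ↥(Subgroup.centralizer ({z} : Set G))).map (Subgroup.centralizer ({z} : Set G)).subtype = Q) :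
    z ∈ Q ∧ (∀ c, c * z = z * c → ∀ q ∈ Q, c * q * c⁻¹ ∈ Q) ∧ (∀ c, (∀ q ∈ Q, c * q = q * c) → c ∈ Q) := by
  have hzc : z ∈ Subgroup.centralizer ({z} : Set G) := Subgroup.mem_centralizer_singleton_iff.mpr rfl
  have hself := CfsgLib.Comp.gfit_self_centralizing (G := ↥(Subgroup.centralizer ({z} : Set G)))
  have hnorm : (Cfsg.generalizedFittingSubgroup ↥(Subgroup.centralizer ({z} : Set G))).Normal := inferInstance
  have key : ∀ c, (hc : c ∈ Subgroup.centralizer ({z} : Set G)) → (∀ q ∈ Q, c * q = q * c) → c ∈ Q := by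
    intro c hc hq
    rw [← hF]
    refine ⟨⟨c, hc⟩, hself ?_, rfl⟩
    rw [Subgroup.mem_centralizer_iff]
    rintro ⟨f, hf⟩ hfF
    apply Subtype.ext
    have : f ∈ Q := by
      rw [← hF]
      exact ⟨⟨f, hf⟩, hfF, rfl⟩
    exact (hq f this).symm
  have hzQ : z ∈ Q := key z hzc (fun q hq => (Subgroup.mem_centralizer_singleton_iff.mp (hQC hq)).symm)
  refine ⟨hzQ, ?_, ?_⟩
  · intro c hc q hq
    have hcm : c ∈ Subgroup.centralizer ({z} : Set G) := Subgroup.mem_centralizer_singleton_iff.mpr hc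
    rw [← hF] at hq ⊢
    obtain ⟨f, hf, rfl⟩ := hq
    exact ⟨_, hnorm.conj_mem f hf ⟨c, hcm⟩, rfl⟩
  · intro c hc
    have hcz := hc z hzQ
    exact key c (Subgroup.mem_centralizer_singleton_iff.mpr hcz) hc

/-- The data around an element `t`. -/
structure Sec (Q S : Subgroup G) (z u t : G) : Prop where
  O : Orth Q S z u
  hE : IsExtraspecial 2 ↥Q
  htt : t * t = 1
  ht1 : t ≠ 1
  htQ : t ∈ Q
  htS : t ∈ S
  htz : ¬ IsConj z t
  huz : IsConj z u

namespace Sec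

variable {Q S : Subgroup G} {z u t : G}

theorem tz (H : Sec Q S z u t) : t ≠ z := fun h => H.htz (h ▸ IsConj.refl _)

theorem tu (H : Sec Q S z u t) : t ≠ u := fun h => H.htz (h ▸ H.huz)

theorem zt_comm (H : Sec Q S z u t) : z * t = t * z := (H.O.hQ.cent t H.htQ).symm

theorem ut_comm (H : Sec Q S z u t) : u * t = t * u := (H.O.hS.cent t H.htS).symm

theorem exists_q0 (H : Sec Q S z u t) : ∃ q ∈ Q, q * t * q⁻¹ = z * t := by
  by_contra hno
  push Not at hno
  have hall : ∀ a ∈ Q, t * a = a * t := by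
    intro a ha
    rcases H.O.hQ.comm a ha t H.htQ with h | h
    · have h2 : a * t * a⁻¹ = t := mul_inv_eq_one.mp h
      exact (mul_inv_eq_iff_eq_mul.mp h2).symm
    · exact absurd (mul_inv_eq_iff_eq_mul.mp h) (hno a ha)
  rcases H.O.hQ.center t H.htQ hall with h | h
  · exact H.ht1 h
  · exact H.tz h

theorem not_conj_zt (H : Sec Q S z u t) : ¬ IsConj z (z * t) := by
  intro hc
  obtain ⟨q, hq, hqt⟩ := H.exists_q0
  have h1 : IsConj t (z * t) := isConj_iff.mpr ⟨q, hqt⟩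
  exact H.htz (hc.trans h1.symm)

theorem u_ne_zt (H : Sec Q S z u t) : u ≠ z * t := fun h => H.not_conj_zt (h ▸ H.huz)

/-- the four-group `⟨z, t⟩` -/
def A (H : Sec Q S z u t) : Subgroup G := fourGroup H.O.hQ.sq H.htt H.zt_comm

theorem mem_A (H : Sec Q S z u t) {x : G} : x ∈ H.A ↔ x = 1 ∨ x = z ∨ x = t ∨ x = z * t := Iff.rfl

theorem A_le (H : Sec Q S z u t) : H.A ≤ Q := by
  rintro x (rfl | rfl | rfl | rfl)
  · exact Q.one_mem
  · exact H.O.hQ.mem
  · exact H.htQ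
  · exact Q.mul_mem H.O.hQ.mem H.htQ

/-- elements of `C_Q(t)` outside `⟨z, t⟩` are not central in `C_Q(t)`. -/
theorem exists_noncomm {x : G} (H : Sec Q S z u t) (hx : x ∈ Q) (hxA : x ∉ H.A) :
    ∃ q ∈ Q, q * t = t * q ∧ q * x * q⁻¹ * x⁻¹ = z := by
  obtain ⟨q, hq, h1, h2⟩ := H.O.hQ.dc H.A H.A_le (Or.inr (Or.inl rfl)) hx hxA
  exact ⟨q, hq, h1 t (Or.inr (Or.inr (Or.inl rfl))), h2⟩

theorem u_not_A (H : Sec Q S z u t) : u ∉ H.A := by
  rintro (h | h | h | h)
  · exact H.O.u1 h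
  · exact H.O.ne h.symm
  · exact H.tu h.symm
  · exact H.u_ne_zt h

theorem exists_q1 (H : Sec Q S z u t) : ∃ q ∈ Q, q * t = t * q ∧ q * u * q⁻¹ = z * u := by
  obtain ⟨q, hq, h1, h2⟩ := H.exists_noncomm H.O.uQ H.u_not_A
  exact ⟨q, hq, h1, mul_inv_eq_iff_eq_mul.mp h2⟩

theorem exists_r1 (H : Sec Q S z u t) : ∃ r ∈ S, r * t = t * r ∧ r * z * r⁻¹ = u * z := by
  let A' : Subgroup G := fourGroup H.O.hS.sq H.htt H.ut_comm
  have hA' : A' ≤ S := by
    rintro x (rfl | rfl | rfl | rfl)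
    · exact S.one_mem
    · exact H.O.hS.mem
    · exact H.htS
    · exact S.mul_mem H.O.hS.mem H.htS
  have hzA : z ∉ A' := by
    rintro (h | h | h | h)
    · exact H.O.z1 h
    · exact H.O.ne h
    · exact H.tz h.symm
    · apply H.u_ne_zt
      rw [h, mul_assoc, H.htt, mul_one]
  obtain ⟨r, hr, h1, h2⟩ := H.O.hS.dc A' hA' (Or.inr (Or.inl rfl)) H.O.zS hzA
  exact ⟨r, hr, h1 t (Or.inr (Or.inr (Or.inl rfl))), mul_inv_eq_iff_eq_mul.mp h2⟩

/-- the last clause of the statement -/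
theorem exists_x (H : Sec Q S z u t) :
    ∃ x ∈ (Q ⊓ Subgroup.centralizer ({t} : Set G)) ⊔ (S ⊓ Subgroup.centralizer ({t} : Set G)), x * u * x⁻¹ = z := by
  obtain ⟨q, hq, hqt, hq1⟩ := H.exists_q1
  obtain ⟨r, hr, hrt, hr1⟩ := H.exists_r1
  have hqz : q * z = z * q := H.O.hQ.cent q hq
  have hzz := H.O.hQ.sq
  have hzu := H.O.zu
  have hqm : q ∈ (Q ⊓ Subgroup.centralizer ({t} : Set G)) ⊔ (S ⊓ Subgroup.centralizer ({t} : Set G)) :=
    Subgroup.mem_sup_left ⟨hq, Subgroup.mem_centralizer_singleton_iff.mpr hqt⟩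
  have hrm : r ∈ (Q ⊓ Subgroup.centralizer ({t} : Set G)) ⊔ (S ⊓ Subgroup.centralizer ({t} : Set G)) :=
    Subgroup.mem_sup_right ⟨hr, Subgroup.mem_centralizer_singleton_iff.mpr hrt⟩
  refine ⟨(q * r)⁻¹, Subgroup.inv_mem _ (Subgroup.mul_mem _ hqm hrm), ?_⟩
  have key : (q * r) * z * (q * r)⁻¹ = u := by
    calc (q * r) * z * (q * r)⁻¹ = q * (r * z * r⁻¹) * q⁻¹ := by group
      _ = q * (u * z) * q⁻¹ := by rw [hr1]
      _ = (q * u * q⁻¹) * (q * z * q⁻¹) := by group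
      _ = (z * u) * (q * z * q⁻¹) := by rw [hq1]
      _ = (z * u) * z := by rw [mul_inv_eq_iff_eq_mul.mpr hqz]
      _ = z * (u * z) := by group
      _ = z * (z * u) := by rw [hzu]
      _ = (z * z) * u := by group
      _ = u := by rw [hzz]; group
  rw [← key]
  group

/-- An odd subgroup of `C(t)` normalized by `C_Q(t)` is trivial. -/
theorem odd_trivial (H : Sec Q S z u t)
    (hCP : ∀ c, c * z = z * c → (∀ x ∈ Q, x * t = t * x → c * x * c⁻¹ = x) → c ∈ Q)
    (K : Subgroup G) (hK : Odd (Nat.card K)) (hKt : ∀ y ∈ K, y * t = t * y)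
    (hKn : ∀ p ∈ Q, p * t = t * p → ∀ y ∈ K, p * y * p⁻¹ ∈ K) : K = ⊥ := by
  have hQp : IsPGroup 2 Q := H.hE.1.1
  have hSp : IsPGroup 2 S := by
    have hsq : ∀ a ∈ S, a ^ 2 ^ 2 = 1 := by
      intro a ha
      have e : a ^ 2 ^ 2 = (a * a) * (a * a) := by
        rw [show (2 : ℕ) ^ 2 = 1 + 1 + 1 + 1 by norm_num]
        simp only [pow_succ, pow_zero, one_mul, mul_assoc]
      rw [e]
      rcases H.O.hS.sqq a ha with h | h
      · rw [h, one_mul]
      · rw [h, H.O.hS.sq]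
    rintro ⟨a, ha⟩
    exact ⟨2, Subtype.ext (hsq a ha)⟩
  have hKQ : ∀ y ∈ K, y ∈ Q → y = 1 := fun y hy hq => eq_one_of_odd_two hK hQp hy hq
  have hKS : ∀ y ∈ K, y ∈ S → y = 1 := fun y hy hq => eq_one_of_odd_two hK hSp hy hq
  have hzz := H.O.hQ.sq
  have huu := H.O.hS.sq
  have hzt : z * t = t * z := H.zt_comm
  have hut : u * t = t * u := H.ut_comm
  have hzu := H.O.zu
  -- step a
  have ha : ∀ y ∈ K, y * z = z * y → y = 1 := by
    intro y hy hyz
    apply hKQ y hy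
    apply hCP y hyz
    intro x hx hxt
    have hyt := hKt y hy
    have h1 : y * x * y⁻¹ ∈ Q := H.O.nQ y hyz x hx
    have hyit : y⁻¹ * t = t * y⁻¹ := by
      calc y⁻¹ * t = y⁻¹ * (t * y) * y⁻¹ := by group
        _ = y⁻¹ * (y * t) * y⁻¹ := by rw [hyt]
        _ = t * y⁻¹ := by group
    have h2 : x * y⁻¹ * x⁻¹ ∈ K := hKn x hx hxt _ (K.inv_mem hy)
    have h3 : y * x * y⁻¹ * x⁻¹ ∈ K := by
      have e : y * x * y⁻¹ * x⁻¹ = y * (x * y⁻¹ * x⁻¹) := by group
      rw [e]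
      exact K.mul_mem hy h2
    have h4 : y * x * y⁻¹ * x⁻¹ ∈ Q := Q.mul_mem h1 (Q.inv_mem hx)
    have h5 := hKQ _ h3 h4
    exact mul_inv_eq_one.mp h5
  -- step b
  have hzn : ∀ a ∈ K, z * a * z⁻¹ ∈ K := hKn z H.O.hQ.mem hzt
  have hinvz : ∀ a ∈ K, z * a * z⁻¹ = a⁻¹ := by
    apply inverts_of_fpf hzz hzn
    intro a ha' h
    apply ha a ha'
    exact (mul_inv_eq_iff_eq_mul.mp h).symm
  -- odd order: no involutions
  have hodd : ∀ y ∈ K, y * y = 1 → y = 1 := by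
    intro y hy h2
    have h3 : y ^ Nat.card K = 1 := by
      have h := congrArg Subtype.val (pow_card_eq_one' (x := (⟨y, hy⟩ : K)))
      exact h
    have h4 : orderOf y ∣ Nat.card K := orderOf_dvd_of_pow_eq_one h3
    have h5 : orderOf y ∣ 2 := orderOf_dvd_of_pow_eq_one (by rw [pow_two]; exact h2)
    have h6 : Nat.Coprime (Nat.card K) 2 := Nat.coprime_two_right.mpr hK
    have h7 : orderOf y ∣ 1 := by
      have := Nat.dvd_gcd h4 h5
      rwa [h6.gcd_eq_one] at this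
    exact orderOf_eq_one_iff.mp (Nat.dvd_one.mp h7)
  -- step c
  have hc : ∀ y ∈ K, y * u = u * y → y = 1 := by
    intro y hy hyu
    have h1 : y * z * y⁻¹ ∈ S := H.O.nS y hyu z H.O.zS
    have h2 : z * y * z⁻¹ * y⁻¹ ∈ S := by
      have e : z * y * z⁻¹ * y⁻¹ = z * (y * z⁻¹ * y⁻¹) := by group
      rw [e]
      refine S.mul_mem H.O.zS ?_
      exact H.O.nS y hyu _ (S.inv_mem H.O.zS)
    have h3 : z * y * z⁻¹ * y⁻¹ ∈ K := K.mul_mem (hzn y hy) (K.inv_mem hy)
    have h4 := hKS _ h3 h2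
    rw [hinvz y hy] at h4
    apply hodd y hy
    have h5 : y⁻¹ * y⁻¹ = 1 := h4
    have h6 : y * y = (y⁻¹ * y⁻¹)⁻¹ := by simp
    rw [h6, h5, inv_one]
  -- step d
  have hun : ∀ a ∈ K, u * a * u⁻¹ ∈ K := hKn u H.O.uQ hut
  have hinvu : ∀ a ∈ K, u * a * u⁻¹ = a⁻¹ := by
    apply inverts_of_fpf huu hun
    intro a ha' h
    apply hc a ha'
    exact (mul_inv_eq_iff_eq_mul.mp h).symm
  obtain ⟨q, hq, hqt, hq1⟩ := H.exists_q1
  rw [eq_bot_iff]
  intro a ha'
  rw [Subgroup.mem_bot]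
  have hqit : q⁻¹ * t = t * q⁻¹ := by
    calc q⁻¹ * t = q⁻¹ * (t * q) * q⁻¹ := by group
      _ = q⁻¹ * (q * t) * q⁻¹ := by rw [hqt]
      _ = t * q⁻¹ := by group
  have hb : q⁻¹ * a * q ∈ K := by
    have := hKn q⁻¹ (Q.inv_mem hq) hqit a ha'
    rwa [inv_inv] at this
  have hazu : (z * u) * a * (z * u)⁻¹ = a := by
    have e : (z * u) * a * (z * u)⁻¹ = z * (u * a * u⁻¹) * z⁻¹ := by group
    rw [e, hinvu a ha']
    have e2 : z * a⁻¹ * z⁻¹ = (z * a * z⁻¹)⁻¹ := by group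
    rw [e2, hinvz a ha', inv_inv]
  have hazu2 : a * (z * u) = (z * u) * a := (mul_inv_eq_iff_eq_mul.mp hazu).symm
  have hq2 : q * u = (z * u) * q := mul_inv_eq_iff_eq_mul.mp hq1
  have hb1 : (q⁻¹ * a * q) * u = u * (q⁻¹ * a * q) := by
    calc (q⁻¹ * a * q) * u = q⁻¹ * a * (q * u) := by group
      _ = q⁻¹ * a * ((z * u) * q) := by rw [hq2]
      _ = q⁻¹ * (a * (z * u)) * q := by group
      _ = q⁻¹ * ((z * u) * a) * q := by rw [hazu2]
      _ = (q⁻¹ * (z * u)) * a * q := by group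
      _ = (q⁻¹ * (q * u * q⁻¹)) * a * q := by rw [hq1]
      _ = u * (q⁻¹ * a * q) := by group
  have hb2 := hc _ hb hb1
  calc a = q * (q⁻¹ * a * q) * q⁻¹ := by group
    _ = 1 := by rw [hb2]; group

end Sec

end CfsgLib.LargeES
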