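/-
A section of an extraspecial centralizer: the image of `C_Q(t)` modulo `t`.
-/
import Cfsg.Agent.Lib.LargeES.Sec29

set_option autoImplicit false
set_option linter.unusedVariables false
set_option linter.unusedSectionVars false

namespace CfsgLib.LargeES

open Cfsg

variable {G : Type*} [Group G] [Finite G]

theorem comm_central {a b s s' : G} (h1 : s * b = b * s) (h2 : s * s' = s' * s) (h3 : s' * a = a * s') :
    (a * s) * (b * s') * (a * s)⁻¹ * (b * s')⁻¹ = a * b * a⁻¹ * b⁻¹ := by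
  have h3' : s' * a⁻¹ = a⁻¹ * s' := by
    calc s' * a⁻¹ = a⁻¹ * (a * s') * a⁻¹ := by group
      _ = a⁻¹ * (s' * a) * a⁻¹ := by rw [h3]
      _ = a⁻¹ * s' := by group
  calc (a * s) * (b * s') * (a * s)⁻¹ * (b * s')⁻¹ = a * (s * b) * s' * s⁻¹ * a⁻¹ * s'⁻¹ * b⁻¹ := by group
    _ = a * (b * s) * s' * s⁻¹ * a⁻¹ * s'⁻¹ * b⁻¹ := by rw [h1]
    _ = a * b * (s * s') * s⁻¹ * a⁻¹ * s'⁻¹ * b⁻¹ := by group
    _ = a * b * (s' * s) * s⁻¹ * a⁻¹ * s'⁻¹ * b⁻¹ := by rw [h2]
    _ = a * b * (s' * a⁻¹) * s'⁻¹ * b⁻¹ := by group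
    _ = a * b * (a⁻¹ * s') * s'⁻¹ * b⁻¹ := by rw [h3']
    _ = a * b * a⁻¹ * b⁻¹ := by group

theorem main_5429 (z : G) (hz : orderOf z = 2) (Q : Subgroup G) (hQC : Q ≤ Subgroup.centralizer ({z} : Set G))
    (hF : (Cfsg.generalizedFittingSubgroup ↥(Subgroup.centralizer ({z} : Set G))).map (Subgroup.centralizer ({z} : Set G)).subtype = Q)
    (hQ : Cfsg.IsExtraspecial 2 ↥Q) (w : ℕ) (hw : 3 ≤ w) (hcard : Nat.card ↥Q = 2 ^ (2 * w + 1)) (g : G)
    (hgQ : g * z * g⁻¹ ∈ Q) (hgZ : g * z * g⁻¹ ∉ ((Subgroup.center ↥Q).map Q.subtype)) (t : G) (ht : orderOf t = 2)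
    (htQ : t ∈ Q ⊓ (Q).map (MulAut.conj g).toMonoidHom) (htz : ¬ IsConj z t) (P : Subgroup G)
    (hP : P = Q ⊓ Subgroup.centralizer ({t} : Set G))
    (hCP : ∀ c ∈ Subgroup.centralizer ({z} : Set G), (∀ x ∈ P, ∃ y ∈ Subgroup.closure ({t, z} : Set G), c * x * c⁻¹ = x * y) ↔ c ∈ Q)
    [hn : ((Subgroup.zpowers t).subgroupOf (Subgroup.centralizer ({t} : Set G))).Normal] :
    Cfsg.IsLargeExtraspecial ((P.subgroupOf (Subgroup.centralizer ({t} : Set G))).map (QuotientGroup.mk' ((Subgroup.zpowers t).subgroupOf (Subgroup.centralizer ({t} : Set G))))) ∧ ∃ x ∈ P ⊔ ((Q).map (MulAut.conj g).toMonoidHom ⊓ Subgroup.centralizer ({t} : Set G)), x * (g * z * g⁻¹) * x⁻¹ = z := by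
  haveI f2 : Fact (Nat.Prime 2) := ⟨Nat.prime_two⟩
  obtain ⟨hzQ, hQN, hQCC⟩ := gfit_facts hz hQC hF
  have hzz : z * z = 1 := by
    have := pow_orderOf_eq_one z
    rwa [hz, pow_two] at this
  have hz1 : z ≠ 1 := by
    rintro rfl
    rw [orderOf_one] at hz
    omega
  have htt : t * t = 1 := by
    have := pow_orderOf_eq_one t
    rwa [ht, pow_two] at this
  have ht1 : t ≠ 1 := by
    rintro rfl
    rw [orderOf_one] at ht
    omega
  have hti : t⁻¹ = t := inv_eq_of_mul_eq_one_left htt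
  have hzcent : ∀ a ∈ Q, a * z = z * a := fun a ha => Subgroup.mem_centralizer_singleton_iff.mp (hQC ha)
  have hE := ESZ.of_ext hQ hzQ hz1 hzcent
  have hzcen : z ∈ ((Subgroup.center ↥Q).map Q.subtype) := by
    refine ⟨⟨z, hzQ⟩, Subgroup.mem_center_iff.mpr ?_, rfl⟩
    rintro ⟨a, ha⟩
    exact Subtype.ext (hzcent a ha)
  have hne : z ≠ g * z * g⁻¹ := fun h => hgZ (h ▸ hzcen)
  have h8 : 8 < Nat.card Q := by
    rw [hcard]
    calc 8 < 2 ^ 7 := by norm_num
      _ ≤ 2 ^ (2 * w + 1) := Nat.pow_le_pow_right (by norm_num) (by omega)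
  have hzS := sym_rev hQ hE hQN hQCC h8 hgQ hne
  have Pr := pair_of hE hQN hzS hne
  have O : Orth Q (Q.map (MulAut.conj g).toMonoidHom) z (g * z * g⁻¹) := by
    refine ⟨hE, Pr.hR, hQN, Pr.nR, hzS, hgQ, hne, hQCC, ?_⟩
    intro c hc
    rw [mem_conj_map]
    apply hQCC
    intro q hq
    have hq' : g * q * g⁻¹ ∈ Q.map (MulAut.conj g).toMonoidHom := by
      rw [mem_conj_map]
      have : g⁻¹ * (g * q * g⁻¹) * g = q := by group
      rwa [this]
    have h1 := hc _ hq'
    have h2 : g⁻¹ * (c * (g * q * g⁻¹)) * g = g⁻¹ * (g * q * g⁻¹ * c) * g := by rw [h1]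
    calc g⁻¹ * c * g * q = g⁻¹ * (c * (g * q * g⁻¹)) * g := by group
      _ = g⁻¹ * (g * q * g⁻¹ * c) * g := h2
      _ = q * (g⁻¹ * c * g) := by group
  have huz : IsConj z (g * z * g⁻¹) := isConj_iff.mpr ⟨g, rfl⟩
  have H : Sec Q (Q.map (MulAut.conj g).toMonoidHom) z (g * z * g⁻¹) t := ⟨O, hQ, htt, ht1, htQ.1, htQ.2, htz, huz⟩
  subst hP
  refine ⟨?_, H.exists_x⟩
  -- the quotient
  obtain ⟨S, hS⟩ : ∃ S, S = Q.map (MulAut.conj g).toMonoidHom := ⟨_, rfl⟩
  obtain ⟨u, hu⟩ : ∃ u, u = g * z * g⁻¹ := ⟨_, rfl⟩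
  rw [← hS, ← hu] at H
  let C := Subgroup.centralizer ({t} : Set G)
  let N := (Subgroup.zpowers t).subgroupOf C
  let π : ↥C →* ↥C ⧸ N := QuotientGroup.mk' N
  have hπs : Function.Surjective π := QuotientGroup.mk'_surjective N
  have hzpw : ∀ x, x ∈ Subgroup.zpowers t ↔ x = 1 ∨ x = t := by
    intro x
    constructor
    · intro hx
      obtain ⟨k, rfl⟩ := Subgroup.mem_zpowers_iff.mp hx
      rcases Int.even_or_odd' k with ⟨m, rfl | rfl⟩
      · left
        rw [zpow_mul, zpow_two, htt, one_zpow]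
      · right
        rw [zpow_add, zpow_mul, zpow_two, htt, one_zpow, one_mul, zpow_one]
    · rintro (rfl | rfl)
      · exact Subgroup.one_mem _
      · exact Subgroup.mem_zpowers _
  have hπ : ∀ a b : ↥C, π a = π b ↔ (a : G)⁻¹ * b = 1 ∨ (a : G)⁻¹ * b = t := by
    intro a b
    have h1 : π a = π b ↔ a⁻¹ * b ∈ N := QuotientGroup.eq
    rw [h1]
    have h2 : a⁻¹ * b ∈ N ↔ ((a⁻¹ * b : ↥C) : G) ∈ Subgroup.zpowers t := Subgroup.mem_subgroupOf
    rw [h2, hzpw]
    rfl
  have hcm : ∀ x, x * t = t * x → x ∈ C := fun x h => Subgroup.mem_centralizer_singleton_iff.mpr h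
  have hcm' : ∀ x : ↥C, (x : G) * t = t * x := fun x => Subgroup.mem_centralizer_singleton_iff.mp x.2
  have htC : t ∈ C := hcm t rfl
  have htP : t ∈ Q ⊓ C := ⟨htQ.1, htC⟩
  have hzt : z * t = t * z := H.zt_comm
  have hzC : z ∈ C := hcm z hzt
  have hzP : z ∈ Q ⊓ C := ⟨hzQ, hzC⟩
  let Pb : Subgroup (↥C ⧸ N) := ((Q ⊓ C).subgroupOf C).map π
  have hPb : ∀ c : ↥C, π c ∈ Pb ↔ (c : G) ∈ Q ⊓ C := by
    intro c
    constructor
    · rintro ⟨x, hx, e⟩
      have hx' : (x : G) ∈ Q ⊓ C := Subgroup.mem_subgroupOf.mp hx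
      rcases (hπ x c).mp e with h | h
      · have : (c : G) = x := by
          rw [inv_mul_eq_one] at h
          exact h.symm
        rw [this]
        exact hx'
      · have : (c : G) = x * t := by
          rw [← h]; group
        rw [this]
        exact Subgroup.mul_mem _ hx' htP
    · intro h
      exact ⟨c, Subgroup.mem_subgroupOf.mpr h, rfl⟩
  have hlift : ∀ a : ↥Pb, ∃ x : ↥C, (x : G) ∈ Q ⊓ C ∧ (a : ↥C ⧸ N) = π x := by
    rintro ⟨a, ha⟩
    obtain ⟨x, rfl⟩ := hπs a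
    exact ⟨x, (hPb x).mp ha, rfl⟩
  have hzne : z ≠ t := H.tz.symm
  have hπz1 : π ⟨z, hzC⟩ ≠ 1 := by
    intro h
    have h2 : π ⟨z, hzC⟩ = π 1 := by rw [h, map_one]
    rcases (hπ _ _).mp h2 with h3 | h3
    · apply hz1
      simpa using h3
    · apply hzne
      have h4 : z⁻¹ * 1 = t := h3
      rw [mul_one] at h4
      rw [← h4, inv_eq_of_mul_eq_one_left hzz]
  have hπinj : ∀ a b : ↥C, (a : G) = b → π a = π b := fun a b h => congrArg π (Subtype.ext h)
  let zb : ↥Pb := ⟨π ⟨z, hzC⟩, (hPb _).mpr hzP⟩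
  have hcommC : ∀ x y : ↥C, (x : G) ∈ Q → (y : G) ∈ Q →
      π x * π y * (π x)⁻¹ * (π y)⁻¹ = 1 ∨ π x * π y * (π x)⁻¹ * (π y)⁻¹ = π ⟨z, hzC⟩ := by
    intro x y hx hy
    rw [← map_inv, ← map_inv, ← map_mul, ← map_mul, ← map_mul]
    rcases hE.comm _ hx _ hy with h | h
    · left
      rw [← map_one π]
      exact hπinj _ _ h
    · right
      exact hπinj _ _ h
  have hsqC : ∀ x : ↥C, (x : G) ∈ Q → π x * π x = 1 ∨ π x * π x = π ⟨z, hzC⟩ := by
    intro x hx
    rw [← map_mul]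
    rcases hE.sqq _ hx with h | h
    · left
      rw [← map_one π]
      exact hπinj _ _ h
    · right
      exact hπinj _ _ h
  -- central elements
  have hcenC : ∀ x : ↥C, (x : G) ∈ Q ⊓ C → (∀ y : ↥C, (y : G) ∈ Q ⊓ C → π x * π y = π y * π x) →
      π x = 1 ∨ π x = π ⟨z, hzC⟩ := by
    intro x hx hc
    have hcomm : ∀ y : ↥C, (y : G) ∈ Q ⊓ C → (x : G) * y = y * x := by
      intro y hy
      have h1 := hc y hy
      rw [← map_mul, ← map_mul] at h1
      have e : (((x * y : ↥C) : G))⁻¹ * ((y * x : ↥C) : G) = (y : G)⁻¹ * (x : G)⁻¹ * (y : G)⁻¹⁻¹ * (x : G)⁻¹⁻¹ := by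
        show ((x : G) * y)⁻¹ * ((y : G) * x) = _
        group
      have h2 := hE.comm (y : G)⁻¹ (Q.inv_mem hy.1) (x : G)⁻¹ (Q.inv_mem hx.1)
      have h3 := (hπ _ _).mp h1
      rw [e] at h3
      have h4 : (y : G)⁻¹ * (x : G)⁻¹ * (y : G)⁻¹⁻¹ * (x : G)⁻¹⁻¹ = 1 := by
        rcases h3 with h3 | h3
        · exact h3
        · rcases h2 with h2 | h2
          · exact h2
          · exact absurd (h2.symm.trans h3) hzne
      have h5 : ((x : G) * y)⁻¹ * ((y : G) * x) = 1 := by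
        rw [← h4]; group
      exact (inv_mul_eq_one.mp h5)
    have hxA : (x : G) ∈ H.A := by
      by_contra hno
      obtain ⟨q, hq, hqt, hq1⟩ := H.exists_noncomm hx.1 hno
      have h1 := hcomm ⟨q, hcm q hqt⟩ ⟨hq, hcm q hqt⟩
      apply hz1
      rw [← hq1]
      have h2 : q * (x : G) = x * q := h1.symm
      rw [h2]
      group
    rcases hxA with h | h | h | h
    · left
      rw [← map_one π]
      exact hπinj _ _ h
    · right
      exact hπinj _ _ h
    · left
      rw [← map_one π]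
      apply (hπ _ _).mpr
      right
      show (x : G)⁻¹ * 1 = t
      rw [h, mul_one, hti]
    · right
      apply (hπ _ _).mpr
      right
      show (x : G)⁻¹ * z = t
      rw [h]
      calc (z * t)⁻¹ * z = t⁻¹ * (z⁻¹ * z) := by group
        _ = t := by rw [inv_mul_cancel, mul_one, hti]
  obtain ⟨q₁, hq₁, hq₁t, hq₁u⟩ := H.exists_q1
  have huP : u ∈ Q ⊓ C := ⟨H.O.uQ, hcm u H.ut_comm⟩
  have hq₁P : q₁ ∈ Q ⊓ C := ⟨hq₁, hcm q₁ hq₁t⟩
  have hq₁comm : q₁ * u * q₁⁻¹ * u⁻¹ = z := by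
    rw [hq₁u]; group
  refine ⟨?_, ?_, ?_, ?_⟩
  · -- extraspecial
    apply extraspecial_of_elts zb
    · intro h
      exact hπz1 (congrArg Subtype.val h)
    · apply Subtype.ext
      show π ⟨z, hzC⟩ * π ⟨z, hzC⟩ = 1
      rw [← map_mul, ← map_one π]
      exact hπinj _ _ hzz
    · rintro a
      obtain ⟨x, hx, hxa⟩ := hlift a
      apply Subtype.ext
      show (a : ↥C ⧸ N) * π ⟨z, hzC⟩ = π ⟨z, hzC⟩ * a
      rw [hxa, ← map_mul, ← map_mul]
      exact hπinj _ _ (hzcent _ hx.1)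
    · intro a b
      obtain ⟨x, hx, hxa⟩ := hlift a
      obtain ⟨y, hy, hyb⟩ := hlift b
      rcases hcommC x y hx.1 hy.1 with h | h
      · left
        apply Subtype.ext
        show (a : ↥C ⧸ N) * b * (a : ↥C ⧸ N)⁻¹ * (b : ↥C ⧸ N)⁻¹ = 1
        rw [hxa, hyb]; exact h
      · right
        apply Subtype.ext
        show (a : ↥C ⧸ N) * b * (a : ↥C ⧸ N)⁻¹ * (b : ↥C ⧸ N)⁻¹ = π ⟨z, hzC⟩
        rw [hxa, hyb]; exact h
    · intro a
      obtain ⟨x, hx, hxa⟩ := hlift a
      rcases hsqC x hx.1 with h | h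
      · left
        apply Subtype.ext
        show (a : ↥C ⧸ N) * a = 1
        rw [hxa]; exact h
      · right
        apply Subtype.ext
        show (a : ↥C ⧸ N) * a = π ⟨z, hzC⟩
        rw [hxa]; exact h
    · intro c hc
      obtain ⟨x, hx, hxc⟩ := hlift c
      have h1 := hcenC x hx (fun y hy => by
        have h2 := hc ⟨π y, (hPb y).mpr hy⟩
        have h3 := congrArg Subtype.val h2
        have h4 : (c : ↥C ⧸ N) * π y = π y * c := h3
        rw [hxc] at h4
        exact h4)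
      rcases h1 with h | h
      · left
        apply Subtype.ext
        rw [hxc]; exact h
      · right
        apply Subtype.ext
        rw [hxc]; exact h
    · refine ⟨⟨π ⟨q₁, hcm q₁ hq₁t⟩, (hPb _).mpr hq₁P⟩, ⟨π ⟨u, hcm u H.ut_comm⟩, (hPb _).mpr huP⟩, ?_⟩
      apply Subtype.ext
      show π ⟨q₁, hcm q₁ hq₁t⟩ * π ⟨u, hcm u H.ut_comm⟩ * (π ⟨q₁, hcm q₁ hq₁t⟩)⁻¹ * (π ⟨u, hcm u H.ut_comm⟩)⁻¹ = π ⟨z, hzC⟩
      rw [← map_inv, ← map_inv, ← map_mul, ← map_mul, ← map_mul]
      exact hπinj _ _ hq₁comm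
  · -- the centralizer
    ext cc
    constructor
    · intro hc
      obtain ⟨c, rfl⟩ := hπs cc
      have hc1 := Subgroup.mem_centralizer_iff.mp hc
      have hact : ∀ x, x ∈ Q ⊓ C → (c : G) * x * (c : G)⁻¹ = x ∨ (c : G) * x * (c : G)⁻¹ = x * t := by
        intro x hx
        have hxC : x ∈ C := hx.2
        have h1 := hc1 (π ⟨x, hxC⟩) ((hPb _).mpr hx)
        rw [← map_mul, ← map_mul] at h1
        have hct := hcm' c
        rcases (hπ _ _).mp h1 with h2 | h2
        · left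
          have h3 : x * (c : G) = c * x := inv_mul_eq_one.mp h2
          rw [← h3]; group
        · right
          have h3 : (c : G) * x = (x * c) * t := by
            rw [← h2]
            show (c : G) * x = (x * c) * ((x * (c : G))⁻¹ * (c * x))
            group
          calc (c : G) * x * (c : G)⁻¹ = (x * c) * t * (c : G)⁻¹ := by rw [h3]
            _ = x * (c * t) * (c : G)⁻¹ := by group
            _ = x * (t * c) * (c : G)⁻¹ := by rw [hct]
            _ = x * t := by group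
      -- `c` centralizes `z`
      have hcz : (c : G) * z * (c : G)⁻¹ = z := by
        have hts : ∀ s : G, (s = 1 ∨ s = t) → s * t = t * s := by
          rintro s (rfl | rfl)
          · simp
          · rfl
        have hA : ∀ {a b s s' : G}, (s = 1 ∨ s = t) → (s' = 1 ∨ s' = t) → a * t = t * a → b * t = t * b →
            (a * s) * (b * s') * (a * s)⁻¹ * (b * s')⁻¹ = a * b * a⁻¹ * b⁻¹ := by
          intro a b s s' hs hs' ha hb
          apply comm_central
          · rcases hs with rfl | rfl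
            · simp
            · exact hb.symm
          · rcases hs with rfl | rfl
            · simp
            · rcases hs' with rfl | rfl
              · simp
              · rfl
          · rcases hs' with rfl | rfl
            · simp
            · exact ha.symm
        have h1 : ∃ s, (s = 1 ∨ s = t) ∧ (c : G) * q₁ * (c : G)⁻¹ = q₁ * s := by
          rcases hact q₁ hq₁P with h | h
          · exact ⟨1, Or.inl rfl, by rw [h, mul_one]⟩
          · exact ⟨t, Or.inr rfl, h⟩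
        have h2 : ∃ s, (s = 1 ∨ s = t) ∧ (c : G) * u * (c : G)⁻¹ = u * s := by
          rcases hact u huP with h | h
          · exact ⟨1, Or.inl rfl, by rw [h, mul_one]⟩
          · exact ⟨t, Or.inr rfl, h⟩
        obtain ⟨s, hs, hs1⟩ := h1
        obtain ⟨s', hs', hs2⟩ := h2
        have e : (c : G) * z * (c : G)⁻¹ = ((c : G) * q₁ * (c : G)⁻¹) * ((c : G) * u * (c : G)⁻¹) *
            ((c : G) * q₁ * (c : G)⁻¹)⁻¹ * ((c : G) * u * (c : G)⁻¹)⁻¹ := by
          conv_lhs => rw [← hq₁comm]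
          group
        rw [e, hs1, hs2, hA hs hs' hq₁t H.ut_comm, hq₁comm]
      have hcz2 : (c : G) * z = z * c := mul_inv_eq_iff_eq_mul.mp hcz
      have hcQ : (c : G) ∈ Q := by
        apply (hCP c (Subgroup.mem_centralizer_singleton_iff.mpr hcz2)).mp
        intro x hx
        rcases hact x hx with h | h
        · exact ⟨1, Subgroup.one_mem _, by rw [h, mul_one]⟩
        · exact ⟨t, Subgroup.subset_closure (Or.inl rfl), h⟩
      have hcP : (c : G) ∈ Q ⊓ C := ⟨hcQ, c.2⟩
      refine ⟨⟨π c, (hPb c).mpr hcP⟩, Subgroup.mem_center_iff.mpr ?_, rfl⟩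
      rintro ⟨y, hy⟩
      apply Subtype.ext
      exact hc1 y hy
    · rintro ⟨y, hy, rfl⟩
      rw [Subgroup.mem_centralizer_iff]
      intro h hh
      have := congrArg Subtype.val ((Subgroup.mem_center_iff.mp hy) ⟨h, hh⟩)
      exact this
  · -- the normalizer
    intro cc hc
    obtain ⟨c, rfl⟩ := hπs cc
    have hc1 := Subgroup.mem_centralizer_iff.mp hc
    have hzmem : π ⟨z, hzC⟩ ∈ ((Subgroup.center ↥Pb).map Pb.subtype : Subgroup (↥C ⧸ N)) := by
      refine ⟨zb, Subgroup.mem_center_iff.mpr ?_, rfl⟩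
      intro a
      obtain ⟨x, hx, hxa⟩ := hlift a
      apply Subtype.ext
      show (a : ↥C ⧸ N) * π ⟨z, hzC⟩ = π ⟨z, hzC⟩ * a
      rw [hxa, ← map_mul, ← map_mul]
      exact hπinj _ _ (hzcent _ hx.1)
    have h1 := hc1 _ hzmem
    rw [← map_mul, ← map_mul] at h1
    have hct := hcm' c
    have hcz : (c : G) * z = z * c := by
      rcases (hπ _ _).mp h1 with h2 | h2
      · exact (inv_mul_eq_one.mp h2).symm
      · exfalso
        apply H.not_conj_zt
        refine isConj_iff.mpr ⟨c, ?_⟩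
        have h3 : (c : G) * z = (z * c) * t := by
          rw [← h2]
          show (c : G) * z = (z * c) * ((z * (c : G))⁻¹ * (c * z))
          group
        calc (c : G) * z * (c : G)⁻¹ = (z * c) * t * (c : G)⁻¹ := by rw [h3]
          _ = z * (c * t) * (c : G)⁻¹ := by group
          _ = z * (t * c) * (c : G)⁻¹ := by rw [hct]
          _ = z * t := by group
    apply mem_normalizer_of_conj
    intro yy hy
    obtain ⟨y, rfl⟩ := hπs yy
    have hyP := (hPb y).mp hy
    rw [← map_inv, ← map_mul, ← map_mul, hPb]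
    refine ⟨hQN c hcz _ hyP.1, Subgroup.mul_mem _ (Subgroup.mul_mem _ c.2 y.2) (Subgroup.inv_mem _ c.2)⟩
  · -- odd subgroups
    intro KK hKK hPK
    let K₁ : Subgroup ↥C := KK.comap π
    let f : ↥K₁ →* ↥KK := (π.comp K₁.subtype).codRestrict KK (fun x => x.2)
    have hfs : Function.Surjective f := by
      rintro ⟨k, hk⟩
      obtain ⟨c, rfl⟩ := hπs k
      exact ⟨⟨c, hk⟩, rfl⟩
    have hfk : ∀ x : ↥K₁, x ∈ f.ker ↔ ((x : ↥C) : G) = 1 ∨ ((x : ↥C) : G) = t := by
      intro x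
      rw [MonoidHom.mem_ker]
      constructor
      · intro h
        have h1 : π (x : ↥C) = 1 := congrArg Subtype.val h
        have h2 : π 1 = π (x : ↥C) := by rw [h1, map_one]
        rcases (hπ _ _).mp h2 with h3 | h3
        · left
          simpa using h3
        · right
          simpa using h3
      · intro h
        apply Subtype.ext
        show π (x : ↥C) = 1
        rw [← map_one π]
        symm
        apply (hπ _ _).mpr
        rcases h with h | h
        · left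
          show (1 : G)⁻¹ * _ = 1
          rw [h]; simp
        · right
          show (1 : G)⁻¹ * _ = t
          rw [h]; simp
    have hkP : IsPGroup 2 f.ker := by
      rintro ⟨x, hx⟩
      refine ⟨1, ?_⟩
      apply Subtype.ext
      apply Subtype.ext
      apply Subtype.ext
      show ((x : ↥C) : G) ^ 2 ^ 1 = 1
      rw [pow_one, pow_two]
      rcases (hfk x).mp hx with h | h
      · rw [h, one_mul]
      · rw [h, htt]
    have hidx : f.ker.index = Nat.card KK := by
      rw [Subgroup.index_ker, MonoidHom.range_eq_top.mpr hfs, Subgroup.card_top]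
    have hcop : Nat.Coprime (Nat.card f.ker) f.ker.index := by
      obtain ⟨n, hn'⟩ := IsPGroup.iff_card.mp hkP
      rw [hn', hidx]
      exact Nat.Coprime.pow_left n (Nat.coprime_two_left.mpr hKK)
    obtain ⟨H', hH'⟩ := Subgroup.exists_right_complement'_of_coprime hcop
    let Kt : Subgroup G := (H'.map K₁.subtype).map C.subtype
    have hcardKt : Nat.card Kt = Nat.card H' := by
      rw [Subgroup.card_map_of_injective C.subtype_injective, Subgroup.card_map_of_injective K₁.subtype_injective]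
    have hH'card : Nat.card H' = Nat.card KK := by
      rw [← hidx, hH'.symm.index_eq_card]
    have hKodd : Odd (Nat.card Kt) := by
      rw [hcardKt, hH'card]
      exact hKK
    have hKtmem : ∀ y, y ∈ Kt ↔ ∃ h ∈ H', ((h : ↥K₁) : ↥C).1 = y := by
      intro y
      constructor
      · rintro ⟨c, ⟨x, hx, rfl⟩, rfl⟩
        exact ⟨x, hx, rfl⟩
      · rintro ⟨h, hh, rfl⟩
        exact ⟨_, ⟨h, hh, rfl⟩, rfl⟩
    have hdec : ∀ x : ↥K₁, ∃ k ∈ f.ker, ∃ h ∈ H', k * h = x := by
      intro x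
      obtain ⟨⟨⟨k, hk⟩, ⟨h, hh⟩⟩, e, -⟩ := hH'.existsUnique x
      exact ⟨k, hk, h, hh, e⟩
    have hKtriv : Kt = ⊥ := by
      apply H.odd_trivial _ Kt hKodd
      · intro y hy
        obtain ⟨h, hh, rfl⟩ := (hKtmem y).mp hy
        exact hcm' _
      · intro p hp hpt y hy
        obtain ⟨h, hh, rfl⟩ := (hKtmem y).mp hy
        have hpC : p ∈ C := hcm p hpt
        have hpP : p ∈ Q ⊓ C := ⟨hp, hpC⟩
        have hπp : π ⟨p, hpC⟩ ∈ Pb := (hPb _).mpr hpP
        have hnorm := Subgroup.mem_normalizer_iff.mp (hPK hπp)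
        have hhK : π ((h : ↥K₁) : ↥C) ∈ KK := h.2
        have h1 := (hnorm _).mp hhK
        rw [← map_inv, ← map_mul, ← map_mul] at h1
        obtain ⟨k, hk, h₂, hh₂, e⟩ := hdec ⟨_, h1⟩
        have e2 : p * ((h : ↥K₁) : ↥C).1 * p⁻¹ = ((k : ↥K₁) : ↥C).1 * ((h₂ : ↥K₁) : ↥C).1 := by
          have := congrArg (fun x : ↥K₁ => ((x : ↥C) : G)) e
          exact this.symm
        rcases (hfk k).mp hk with h3 | h3
        · rw [e2, h3, one_mul]
          exact (hKtmem _).mpr ⟨h₂, hh₂, rfl⟩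
        · exfalso
          -- raise to the odd power
          have hn1 : ((h : ↥K₁) : ↥C).1 ^ Nat.card H' = 1 := by
            have := congrArg (fun x : ↥H' => (((x : ↥K₁) : ↥C) : G)) (pow_card_eq_one' (x := (⟨h, hh⟩ : H')))
            exact this
          have hn2 : ((h₂ : ↥K₁) : ↥C).1 ^ Nat.card H' = 1 := by
            have := congrArg (fun x : ↥H' => (((x : ↥K₁) : ↥C) : G)) (pow_card_eq_one' (x := (⟨h₂, hh₂⟩ : H')))
            exact this
          have h4 : (p * ((h : ↥K₁) : ↥C).1 * p⁻¹) ^ Nat.card H' = 1 := by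
            rw [conj_pow, hn1]; group
          rw [e2, h3] at h4
          have hcomm : Commute t ((h₂ : ↥K₁) : ↥C).1 := (hcm' _).symm
          rw [hcomm.mul_pow, hn2, mul_one] at h4
          have hoddc : Odd (Nat.card H') := by
            rw [hH'card]; exact hKK
          obtain ⟨m, hm⟩ := hoddc
          rw [hm, pow_succ, pow_mul, pow_two, htt, one_pow, one_mul] at h4
          exact ht1 h4
      · intro c hcz hall
        apply (hCP c (Subgroup.mem_centralizer_singleton_iff.mpr hcz)).mp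
        intro x hx
        exact ⟨1, Subgroup.one_mem _, by
          rw [mul_one]
          exact hall x hx.1 (Subgroup.mem_centralizer_singleton_iff.mp hx.2)⟩
    rw [eq_bot_iff]
    intro kk hkk
    rw [Subgroup.mem_bot]
    obtain ⟨c, rfl⟩ := hπs kk
    obtain ⟨k, hk, h, hh, e⟩ := hdec ⟨c, hkk⟩
    have hh1 : ((h : ↥K₁) : ↥C).1 ∈ Kt := (hKtmem _).mpr ⟨h, hh, rfl⟩
    rw [hKtriv, Subgroup.mem_bot] at hh1
    have hh2 : h = 1 := Subtype.ext (Subtype.ext hh1)
    rw [hh2, mul_one] at e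
    have hk2 : f k = 1 := hk
    rw [e] at hk2
    exact congrArg Subtype.val hk2

end CfsgLib.LargeES
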