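/-
`R` is normal in `X`, the braid relation modulo `R`, and `X ⊓ C(V) ≤ R`.
-/
import Cfsg.Agent.Lib.LargeES.OrthR

set_option autoImplicit false
set_option linter.unusedVariables false
set_option linter.unusedSectionVars false

open scoped commutatorElement

namespace CfsgLib.LargeES

open Cfsg

variable {G : Type*} [Group G] [Finite G]

/-- The six cosets of `R`. -/
def Six (R : Subgroup G) (q r x : G) : Prop :=
  ∃ ρ ∈ R, x = ρ ∨ x = q * ρ ∨ x = r * ρ ∨ x = q * r * ρ ∨ x = r * q * ρ ∨ x = q * r * q * ρ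

section six

variable {R X : Subgroup G} {q r : G}

theorem Six.q_mul (hX : ∀ x ∈ X, ∀ ρ ∈ R, x * ρ * x⁻¹ ∈ R) (hq : q ∈ X) (hr : r ∈ X) (hqq : q * q ∈ R)
    {y : G} (hy : Six R q r y) : Six R q r (q * y) := by
  obtain ⟨ρ, hρ, h⟩ := hy
  have hri : r⁻¹ ∈ X := X.inv_mem hr
  have hqi : q⁻¹ ∈ X := X.inv_mem hq
  rcases h with rfl | rfl | rfl | rfl | rfl | rfl
  · exact ⟨y, hρ, Or.inr (Or.inl rfl)⟩
  · exact ⟨(q * q) * ρ, R.mul_mem hqq hρ, Or.inl (by group)⟩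
  · exact ⟨ρ, hρ, Or.inr (Or.inr (Or.inr (Or.inl (by group))))⟩
  · have h1 := hX _ hri _ hqq
    rw [inv_inv] at h1
    exact ⟨(r⁻¹ * (q * q) * r) * ρ, R.mul_mem h1 hρ, Or.inr (Or.inr (Or.inl (by group)))⟩
  · exact ⟨ρ, hρ, Or.inr (Or.inr (Or.inr (Or.inr (Or.inr (by group)))))⟩
  · have h1 := hX _ hri _ hqq
    rw [inv_inv] at h1
    have h2 := hX _ hqi _ h1
    rw [inv_inv] at h2
    exact ⟨(q⁻¹ * (r⁻¹ * (q * q) * r) * q) * ρ, R.mul_mem h2 hρ,
      Or.inr (Or.inr (Or.inr (Or.inr (Or.inl (by group)))))⟩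

theorem Six.r_mul (hX : ∀ x ∈ X, ∀ ρ ∈ R, x * ρ * x⁻¹ ∈ R) (hq : q ∈ X) (hr : r ∈ X) (hqq : q * q ∈ R)
    (hrr : r * r ∈ R) (hB : q * r⁻¹ * q⁻¹ * r * q * r⁻¹ ∈ R)
    {y : G} (hy : Six R q r y) : Six R q r (r * y) := by
  obtain ⟨ρ, hρ, h⟩ := hy
  have hri : r⁻¹ ∈ X := X.inv_mem hr
  have hqi : q⁻¹ ∈ X := X.inv_mem hq
  have hqqi : (q * q)⁻¹ ∈ R := R.inv_mem hqq
  -- `q⁻¹ r⁻¹ q⁻¹ r q r ∈ R`
  have hB2 : (q * r * q)⁻¹ * (r * q * r) ∈ R := by
    have e : (q * r * q)⁻¹ * (r * q * r) = (q * q)⁻¹ * (q * r⁻¹ * q⁻¹ * r * q * r⁻¹) * (r * r) := by group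
    rw [e]
    exact R.mul_mem (R.mul_mem hqqi hB) hrr
  rcases h with rfl | rfl | rfl | rfl | rfl | rfl
  · exact ⟨y, hρ, Or.inr (Or.inr (Or.inl rfl))⟩
  · exact ⟨ρ, hρ, Or.inr (Or.inr (Or.inr (Or.inr (Or.inl (by group)))))⟩
  · exact ⟨(r * r) * ρ, R.mul_mem hrr hρ, Or.inl (by group)⟩
  · exact ⟨((q * r * q)⁻¹ * (r * q * r)) * ρ, R.mul_mem hB2 hρ,
      Or.inr (Or.inr (Or.inr (Or.inr (Or.inr (by group)))))⟩
  · have h1 := hX _ hqi _ hrr
    rw [inv_inv] at h1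
    exact ⟨(q⁻¹ * (r * r) * q) * ρ, R.mul_mem h1 hρ, Or.inr (Or.inl (by group))⟩
  · have h1 := hX _ hqi _ hB2
    rw [inv_inv] at h1
    exact ⟨((q * q) * (q⁻¹ * ((q * r * q)⁻¹ * (r * q * r)) * q)) * ρ,
      R.mul_mem (R.mul_mem hqq h1) hρ, Or.inr (Or.inr (Or.inr (Or.inl (by group))))⟩

theorem Six.R_mul (hX : ∀ x ∈ X, ∀ ρ ∈ R, x * ρ * x⁻¹ ∈ R) (hq : q ∈ X) (hr : r ∈ X)
    {y ρ₀ : G} (hρ₀ : ρ₀ ∈ R) (hy : Six R q r y) : Six R q r (ρ₀ * y) := by
  obtain ⟨ρ, hρ, h⟩ := hy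
  have key : ∀ a ∈ X, a⁻¹ * ρ₀ * a * ρ ∈ R := fun a ha => by
    have h1 := hX _ (X.inv_mem ha) _ hρ₀
    rw [inv_inv] at h1
    exact R.mul_mem h1 hρ
  rcases h with rfl | rfl | rfl | rfl | rfl | rfl
  · exact ⟨ρ₀ * y, R.mul_mem hρ₀ hρ, Or.inl rfl⟩
  · exact ⟨_, key q hq, Or.inr (Or.inl (by group))⟩
  · exact ⟨_, key r hr, Or.inr (Or.inr (Or.inl (by group)))⟩
  · exact ⟨_, key (q * r) (X.mul_mem hq hr), Or.inr (Or.inr (Or.inr (Or.inl (by group))))⟩
  · exact ⟨_, key (r * q) (X.mul_mem hr hq), Or.inr (Or.inr (Or.inr (Or.inr (Or.inl (by group)))))⟩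
  · exact ⟨_, key (q * r * q) (X.mul_mem (X.mul_mem hq hr) hq),
      Or.inr (Or.inr (Or.inr (Or.inr (Or.inr (by group)))))⟩

end six

namespace Orth

variable {Q S : Subgroup G} {z u : G}

theorem Q_norm_W (P : Orth Q S z u) {v w : G} (hv : v ∈ Q) (hw : w ∈ WW S z) :
    v * w * v⁻¹ ∈ WW S z ⊔ WW Q u := by
  obtain ⟨hw1, hwz⟩ := mem_WW.mp hw
  have hwu : w * u = u * w := P.hS.cent w hw1
  have hvi : v⁻¹ ∈ Q := Q.inv_mem hv
  have ht : ∃ t, v⁻¹ * u * v = t ∧ w * t = t * w := by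
    rcases P.act_u hvi with h | h
    · rw [inv_inv] at h
      exact ⟨u, h, hwu⟩
    · rw [inv_inv] at h
      refine ⟨z * u, h, ?_⟩
      calc w * (z * u) = (w * z) * u := by group
        _ = (z * w) * u := by rw [hwz]
        _ = z * (w * u) := by group
        _ = z * (u * w) := by rw [hwu]
        _ = z * u * w := by group
  obtain ⟨t, ht1, ht2⟩ := ht
  have hd1 : v * w * v⁻¹ * w⁻¹ ∈ Q := by
    have e : v * w * v⁻¹ * w⁻¹ = v * (w * v⁻¹ * w⁻¹) := by group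
    rw [e]
    exact Q.mul_mem hv (P.nQ w hwz _ hvi)
  have hd2 : (v * w * v⁻¹ * w⁻¹) * u = u * (v * w * v⁻¹ * w⁻¹) := by
    have hwui : w⁻¹ * u = u * w⁻¹ := by
      have : w⁻¹ * u * w = u := by
        calc w⁻¹ * u * w = w⁻¹ * (u * w) := by group
          _ = w⁻¹ * (w * u) := by rw [hwu]
          _ = u := by group
      calc w⁻¹ * u = (w⁻¹ * u * w) * w⁻¹ := by group
        _ = u * w⁻¹ := by rw [this]
    have h3 : v⁻¹ * u = t * v⁻¹ := by
      calc v⁻¹ * u = (v⁻¹ * u * v) * v⁻¹ := by group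
        _ = t * v⁻¹ := by rw [ht1]
    have h4 : v * t = u * v := by
      rw [← ht1]; group
    calc (v * w * v⁻¹ * w⁻¹) * u = v * w * v⁻¹ * (w⁻¹ * u) := by group
      _ = v * w * v⁻¹ * (u * w⁻¹) := by rw [hwui]
      _ = v * w * (v⁻¹ * u) * w⁻¹ := by group
      _ = v * w * (t * v⁻¹) * w⁻¹ := by rw [h3]
      _ = v * (w * t) * v⁻¹ * w⁻¹ := by group
      _ = v * (t * w) * v⁻¹ * w⁻¹ := by rw [ht2]
      _ = (v * t) * w * v⁻¹ * w⁻¹ := by group
      _ = (u * v) * w * v⁻¹ * w⁻¹ := by rw [h4]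
      _ = u * (v * w * v⁻¹ * w⁻¹) := by group
  have e : v * w * v⁻¹ = (v * w * v⁻¹ * w⁻¹) * w := by group
  rw [e]
  exact Subgroup.mul_mem _ (Subgroup.mem_sup_right (mem_WW.mpr ⟨hd1, hd2⟩)) (Subgroup.mem_sup_left hw)

theorem Q_norm_Q2 (P : Orth Q S z u) {v p : G} (hv : v ∈ Q) (hp : p ∈ WW Q u) :
    v * p * v⁻¹ ∈ WW S z ⊔ WW Q u := by
  obtain ⟨hp1, hpu⟩ := mem_WW.mp hp
  have hpz : p * z = z * p := P.hQ.cent p hp1
  have hvi : v⁻¹ ∈ Q := Q.inv_mem hv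
  have ht : ∃ t, v⁻¹ * u * v = t ∧ p * t = t * p := by
    rcases P.act_u hvi with h | h
    · rw [inv_inv] at h
      exact ⟨u, h, hpu⟩
    · rw [inv_inv] at h
      refine ⟨z * u, h, ?_⟩
      calc p * (z * u) = (p * z) * u := by group
        _ = (z * p) * u := by rw [hpz]
        _ = z * (p * u) := by group
        _ = z * (u * p) := by rw [hpu]
        _ = z * u * p := by group
  obtain ⟨t, ht1, ht2⟩ := ht
  have h3 : v⁻¹ * u = t * v⁻¹ := by
    calc v⁻¹ * u = (v⁻¹ * u * v) * v⁻¹ := by group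
      _ = t * v⁻¹ := by rw [ht1]
  have h4 : v * t = u * v := by
    rw [← ht1]; group
  refine Subgroup.mem_sup_right (mem_WW.mpr ⟨Q.mul_mem (Q.mul_mem hv hp1) hvi, ?_⟩)
  calc v * p * v⁻¹ * u = v * p * (v⁻¹ * u) := by group
    _ = v * p * (t * v⁻¹) := by rw [h3]
    _ = v * (p * t) * v⁻¹ := by group
    _ = v * (t * p) * v⁻¹ := by rw [ht2]
    _ = (v * t) * p * v⁻¹ := by group
    _ = (u * v) * p * v⁻¹ := by rw [h4]
    _ = u * (v * p * v⁻¹) := by group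

theorem Q_norm_R (P : Orth Q S z u) {v ρ : G} (hv : v ∈ Q) (hρ : ρ ∈ WW S z ⊔ WW Q u) :
    v * ρ * v⁻¹ ∈ WW S z ⊔ WW Q u := by
  have hle : WW S z ⊔ WW Q u ≤ (WW S z ⊔ WW Q u).comap (MulAut.conj v).toMonoidHom := by
    apply sup_le
    · intro w hw
      exact P.Q_norm_W hv hw
    · intro p hp
      exact P.Q_norm_Q2 hv hp
  exact hle hρ

theorem S_norm_R (P : Orth Q S z u) {v ρ : G} (hv : v ∈ S) (hρ : ρ ∈ WW S z ⊔ WW Q u) :
    v * ρ * v⁻¹ ∈ WW S z ⊔ WW Q u := by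
  have := P.symm.Q_norm_R hv (ρ := ρ) (by rw [sup_comm]; exact hρ)
  rwa [sup_comm] at this

theorem X_norm_R (P : Orth Q S z u) : ∀ x ∈ Q ⊔ S, ∀ ρ ∈ WW S z ⊔ WW Q u, x * ρ * x⁻¹ ∈ WW S z ⊔ WW Q u := by
  let T : Subgroup G := finSub (fun x => ∀ ρ ∈ WW S z ⊔ WW Q u, x * ρ * x⁻¹ ∈ WW S z ⊔ WW Q u)
    (fun ρ hρ => by simpa using hρ) (by
      intro a b ha hb ρ hρ
      have e : a * b * ρ * (a * b)⁻¹ = a * (b * ρ * b⁻¹) * a⁻¹ := by group
      rw [e]
      exact ha _ (hb _ hρ))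
  have hle : Q ⊔ S ≤ T := by
    apply sup_le
    · intro v hv ρ hρ
      exact P.Q_norm_R hv hρ
    · intro v hv ρ hρ
      exact P.S_norm_R hv hρ
  intro x hx
  exact hle hx

theorem qi (P : Orth Q S z u) {q : G} (hq : q ∈ Q) (h : q * u * q⁻¹ = z * u) : q⁻¹ * u * q = z * u := by
  have hqz : q⁻¹ * z = z * q⁻¹ := P.hQ.cent _ (Q.inv_mem hq)
  have hzz := P.hQ.sq
  calc q⁻¹ * u * q = q⁻¹ * (z * z) * u * q := by rw [hzz]; group
    _ = (q⁻¹ * z) * z * u * q := by group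
    _ = (z * q⁻¹) * z * u * q := by rw [hqz]
    _ = z * (q⁻¹ * (z * u)) * q := by group
    _ = z * (q⁻¹ * (q * u * q⁻¹)) * q := by rw [h]
    _ = z * u := by group

/-- the element `q r⁻¹ q⁻¹ r q r⁻¹` lies in `R`. -/
theorem braid (P : Orth Q S z u) {g q r : G} (hS : S = Q.map (MulAut.conj g).toMonoidHom) (hu : u = g * z * g⁻¹)
    (hq : q ∈ Q) (hr : r ∈ S) (hq1 : q * u * q⁻¹ = z * u) (hr1 : r * z * r⁻¹ = u * z) :
    q * r⁻¹ * q⁻¹ * r * q * r⁻¹ ∈ WW S z ⊔ WW Q u := by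
  have hzz := P.hQ.sq
  have huu := P.hS.sq
  have hzu := P.zu
  have hq2 := P.qi hq hq1
  have hr2 := P.symm.qi hr (by rw [hr1])
  have hqz : q * z = z * q := P.hQ.cent _ hq
  have hqiz : q⁻¹ * z = z * q⁻¹ := P.hQ.cent _ (Q.inv_mem hq)
  have hru : r * u = u * r := P.hS.cent _ hr
  have hriu : r⁻¹ * u = u * r⁻¹ := P.hS.cent _ (S.inv_mem hr)
  -- conjugation by `c = g⁻¹ q⁻¹ r` fixes `z`
  have hc : (g⁻¹ * q⁻¹ * r) * z = z * (g⁻¹ * q⁻¹ * r) := by
    have h1 : r * z = (u * z) * r := by rw [← hr1]; group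
    have h2 : q⁻¹ * u = (z * u) * q⁻¹ := by rw [← hq2]; group
    have h3 : g⁻¹ * u = z * g⁻¹ := by rw [hu]; group
    calc (g⁻¹ * q⁻¹ * r) * z = g⁻¹ * q⁻¹ * (r * z) := by group
      _ = g⁻¹ * q⁻¹ * ((u * z) * r) := by rw [h1]
      _ = g⁻¹ * (q⁻¹ * u) * z * r := by group
      _ = g⁻¹ * ((z * u) * q⁻¹) * z * r := by rw [h2]
      _ = g⁻¹ * z * u * (q⁻¹ * z) * r := by group
      _ = g⁻¹ * z * u * (z * q⁻¹) * r := by rw [hqiz]
      _ = g⁻¹ * z * (u * z) * q⁻¹ * r := by group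
      _ = g⁻¹ * z * (z * u) * q⁻¹ * r := by rw [hzu]
      _ = g⁻¹ * (z * z) * u * q⁻¹ * r := by group
      _ = g⁻¹ * u * q⁻¹ * r := by rw [hzz]; group
      _ = (g⁻¹ * u) * q⁻¹ * r := by group
      _ = (z * g⁻¹) * q⁻¹ * r := by rw [h3]
      _ = z * (g⁻¹ * q⁻¹ * r) := by group
  -- hence `q⁻¹ (r q r⁻¹) q ∈ S`
  have hS2 : q⁻¹ * (r * q * r⁻¹) * q ∈ S := by
    rw [hS, mem_conj_map]
    have e : g⁻¹ * (q⁻¹ * (r * q * r⁻¹) * q) * g = (g⁻¹ * q⁻¹ * r) * q * (g⁻¹ * q⁻¹ * r)⁻¹ := by group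
    rw [e]
    exact P.nQ _ hc _ hq
  have hwS : r⁻¹ * q⁻¹ * r * q * r⁻¹ * q ∈ S := by
    have e : r⁻¹ * q⁻¹ * r * q * r⁻¹ * q = r⁻¹ * (q⁻¹ * (r * q * r⁻¹) * q) := by group
    rw [e]
    exact S.mul_mem (S.inv_mem hr) hS2
  -- and it commutes with `z`
  have hwz : (r⁻¹ * q⁻¹ * r * q * r⁻¹ * q) * z = z * (r⁻¹ * q⁻¹ * r * q * r⁻¹ * q) := by
    have h1 : r⁻¹ * z = (u * z) * r⁻¹ := by rw [← hr2]; group
    have h2 : q * u = (z * u) * q := by rw [← hq1]; group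
    have h3 : q⁻¹ * u = (z * u) * q⁻¹ := by rw [← hq2]; group
    have h4 : r * z = (u * z) * r := by rw [← hr1]; group
    calc (r⁻¹ * q⁻¹ * r * q * r⁻¹ * q) * z = r⁻¹ * q⁻¹ * r * q * (r⁻¹ * (q * z)) := by group
      _ = r⁻¹ * q⁻¹ * r * q * (r⁻¹ * (z * q)) := by rw [hqz]
      _ = r⁻¹ * q⁻¹ * r * q * (r⁻¹ * z) * q := by group
      _ = r⁻¹ * q⁻¹ * r * q * ((u * z) * r⁻¹) * q := by rw [h1]
      _ = r⁻¹ * q⁻¹ * r * (q * u) * z * r⁻¹ * q := by group
      _ = r⁻¹ * q⁻¹ * r * ((z * u) * q) * z * r⁻¹ * q := by rw [h2]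
      _ = r⁻¹ * q⁻¹ * r * z * u * (q * z) * r⁻¹ * q := by group
      _ = r⁻¹ * q⁻¹ * r * z * u * (z * q) * r⁻¹ * q := by rw [hqz]
      _ = r⁻¹ * q⁻¹ * r * z * (u * z) * q * r⁻¹ * q := by group
      _ = r⁻¹ * q⁻¹ * r * z * (z * u) * q * r⁻¹ * q := by rw [hzu]
      _ = r⁻¹ * q⁻¹ * r * (z * z) * u * q * r⁻¹ * q := by group
      _ = r⁻¹ * q⁻¹ * (r * u) * q * r⁻¹ * q := by rw [hzz]; group
      _ = r⁻¹ * q⁻¹ * (u * r) * q * r⁻¹ * q := by rw [hru]
      _ = r⁻¹ * (q⁻¹ * u) * r * q * r⁻¹ * q := by group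
      _ = r⁻¹ * ((z * u) * q⁻¹) * r * q * r⁻¹ * q := by rw [h3]
      _ = (r⁻¹ * z) * u * q⁻¹ * r * q * r⁻¹ * q := by group
      _ = ((u * z) * r⁻¹) * u * q⁻¹ * r * q * r⁻¹ * q := by rw [h1]
      _ = u * z * (r⁻¹ * u) * q⁻¹ * r * q * r⁻¹ * q := by group
      _ = u * z * (u * r⁻¹) * q⁻¹ * r * q * r⁻¹ * q := by rw [hriu]
      _ = u * (z * u) * r⁻¹ * q⁻¹ * r * q * r⁻¹ * q := by group
      _ = u * (u * z) * r⁻¹ * q⁻¹ * r * q * r⁻¹ * q := by rw [hzu]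
      _ = (u * u) * z * r⁻¹ * q⁻¹ * r * q * r⁻¹ * q := by group
      _ = z * (r⁻¹ * q⁻¹ * r * q * r⁻¹ * q) := by rw [huu]; group
  have hw : r⁻¹ * q⁻¹ * r * q * r⁻¹ * q ∈ WW S z := mem_WW.mpr ⟨hwS, hwz⟩
  have e : q * r⁻¹ * q⁻¹ * r * q * r⁻¹ = q * (r⁻¹ * q⁻¹ * r * q * r⁻¹ * q) * q⁻¹ := by group
  rw [e]
  exact P.Q_norm_R hq (Subgroup.mem_sup_left hw)

theorem z_mem_R (P : Orth Q S z u) : z ∈ WW S z ⊔ WW Q u := Subgroup.mem_sup_left (mem_WW.mpr ⟨P.zS, rfl⟩)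

theorem u_mem_R (P : Orth Q S z u) : u ∈ WW S z ⊔ WW Q u := Subgroup.mem_sup_right (mem_WW.mpr ⟨P.uQ, rfl⟩)

/-- every element of `X` lies in one of the six cosets -/
theorem six (P : Orth Q S z u) {g q r : G} (hS : S = Q.map (MulAut.conj g).toMonoidHom) (hu : u = g * z * g⁻¹)
    (hq : q ∈ Q) (hr : r ∈ S) (hq1 : q * u * q⁻¹ = z * u) (hr1 : r * z * r⁻¹ = u * z) :
    ∀ x ∈ Q ⊔ S, Six (WW S z ⊔ WW Q u) q r x := by
  have hB := P.braid hS hu hq hr hq1 hr1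
  have hX := P.X_norm_R
  have hqX : q ∈ Q ⊔ S := Subgroup.mem_sup_left hq
  have hrX : r ∈ Q ⊔ S := Subgroup.mem_sup_right hr
  have hqq : q * q ∈ WW S z ⊔ WW Q u := by
    rcases P.hQ.sqq q hq with h | h
    · rw [h]; exact Subgroup.one_mem _
    · rw [h]; exact P.z_mem_R
  have hrr : r * r ∈ WW S z ⊔ WW Q u := by
    rcases P.hS.sqq r hr with h | h
    · rw [h]; exact Subgroup.one_mem _
    · rw [h]; exact P.u_mem_R
  let T : Subgroup G := finSub (fun x => ∀ y, Six (WW S z ⊔ WW Q u) q r y → Six (WW S z ⊔ WW Q u) q r (x * y))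
    (fun y hy => by simpa using hy) (by
      intro a b ha hb y hy
      rw [mul_assoc]
      exact ha _ (hb _ hy))
  have hle : Q ⊔ S ≤ T := by
    apply sup_le
    · intro v hv y hy
      by_cases hvu : v * u = u * v
      · exact Six.R_mul hX hqX hrX (Subgroup.mem_sup_right (mem_WW.mpr ⟨hv, hvu⟩)) hy
      · have hvu2 : v * u * v⁻¹ = z * u := by
          rcases P.act_u hv with h | h
          · exact absurd (mul_inv_eq_iff_eq_mul.mp h) hvu
          · exact h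
        have h1 : q⁻¹ * v ∈ WW S z ⊔ WW Q u := by
          refine Subgroup.mem_sup_right (mem_WW.mpr ⟨Q.mul_mem (Q.inv_mem hq) hv, ?_⟩)
          have h2 : v * u = (z * u) * v := by rw [← hvu2]; group
          have h3 : q⁻¹ * (z * u) = u * q⁻¹ := by
            rw [← hq1]; group
          calc q⁻¹ * v * u = q⁻¹ * (v * u) := by group
            _ = q⁻¹ * ((z * u) * v) := by rw [h2]
            _ = (q⁻¹ * (z * u)) * v := by group
            _ = (u * q⁻¹) * v := by rw [h3]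
            _ = u * (q⁻¹ * v) := by group
        have h4 := Six.q_mul hX hqX hrX hqq (Six.R_mul hX hqX hrX h1 hy)
        have e : q * (q⁻¹ * v * y) = v * y := by group
        rwa [e] at h4
    · intro v hv y hy
      by_cases hvz : v * z = z * v
      · exact Six.R_mul hX hqX hrX (Subgroup.mem_sup_left (mem_WW.mpr ⟨hv, hvz⟩)) hy
      · have hvz2 : v * z * v⁻¹ = u * z := by
          rcases P.symm.act_u hv with h | h
          · exact absurd (mul_inv_eq_iff_eq_mul.mp h) hvz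
          · exact h
        have h1 : r⁻¹ * v ∈ WW S z ⊔ WW Q u := by
          refine Subgroup.mem_sup_left (mem_WW.mpr ⟨S.mul_mem (S.inv_mem hr) hv, ?_⟩)
          have h2 : v * z = (u * z) * v := by rw [← hvz2]; group
          have h3 : r⁻¹ * (u * z) = z * r⁻¹ := by
            rw [← hr1]; group
          calc r⁻¹ * v * z = r⁻¹ * (v * z) := by group
            _ = r⁻¹ * ((u * z) * v) := by rw [h2]
            _ = (r⁻¹ * (u * z)) * v := by group
            _ = (z * r⁻¹) * v := by rw [h3]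
            _ = z * (r⁻¹ * v) := by group
        have h4 := Six.r_mul hX hqX hrX hqq hrr hB (Six.R_mul hX hqX hrX h1 hy)
        have e : r * (r⁻¹ * v * y) = v * y := by group
        rwa [e] at h4
  intro x hx
  have := hle hx 1 ⟨1, Subgroup.one_mem _, Or.inl rfl⟩
  rwa [mul_one] at this

/-- `R` centralizes the four-group -/
theorem R_comm_z (P : Orth Q S z u) {x : G} (hx : x ∈ WW S z ⊔ WW Q u) : x * z = z * x := by
  obtain ⟨w, hw, p, hp, rfl⟩ := P.decomp hx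
  have h1 := (mem_WW.mp hw).2
  have h2 := P.hQ.cent p hp.1
  calc w * p * z = w * (p * z) := by group
    _ = w * (z * p) := by rw [h2]
    _ = (w * z) * p := by group
    _ = (z * w) * p := by rw [h1]
    _ = z * (w * p) := by group

theorem R_comm_u (P : Orth Q S z u) {x : G} (hx : x ∈ WW S z ⊔ WW Q u) : x * u = u * x := by
  obtain ⟨w, hw, p, hp, rfl⟩ := P.decomp hx
  have h1 := (mem_WW.mp hp).2
  have h2 := P.hS.cent w hw.1
  calc w * p * u = w * (p * u) := by group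
    _ = w * (u * p) := by rw [h1]
    _ = (w * u) * p := by group
    _ = (u * w) * p := by rw [h2]
    _ = u * (w * p) := by group

/-- `X ⊓ C(V) ≤ R` -/
theorem inter_le_R (P : Orth Q S z u) {g : G} (hS : S = Q.map (MulAut.conj g).toMonoidHom) (hu : u = g * z * g⁻¹)
    {x : G} (hx : x ∈ Q ⊔ S) (hxz : x * z = z * x) (hxu : x * u = u * x) : x ∈ WW S z ⊔ WW Q u := by
  obtain ⟨q, hq, hq1⟩ := P.exists_q
  obtain ⟨r, hr, hr1⟩ := P.symm.exists_q
  have hzz := P.hQ.sq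
  have huu := P.hS.sq
  have hzu := P.zu
  have hq2 := P.qi hq hq1
  have hqz : q * z = z * q := P.hQ.cent _ hq
  have hru : r * u = u * r := P.hS.cent _ hr
  obtain ⟨ρ, hρ, h⟩ := P.six hS hu hq hr hq1 hr1 x hx
  have hρz := P.R_comm_z hρ
  have hρu := P.R_comm_u hρ
  -- `y ρ` commutes with `z`, `ρ` commutes, so `y` commutes
  have cancel : ∀ a y : G, ρ * a = a * ρ → (y * ρ) * a = a * (y * ρ) → y * a = a * y := by
    intro a y h1 h2
    have : y * ρ * a = (a * y) * ρ := by rw [h2]; group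
    have h3 : y * (ρ * a) = (a * y) * ρ := by rw [← this]; group
    rw [h1] at h3
    have h4 : y * a * ρ = (a * y) * ρ := by rw [← h3]; group
    exact mul_right_cancel h4
  have hq4 : q * u = (z * u) * q := by rw [← hq1]; group
  have hr4 : r * z = (u * z) * r := by rw [← hr1]; group
  have hu1 := P.u1
  have hz1 := P.z1
  -- `z u ≠ u`, `u z ≠ z`
  have hne1 : z * u ≠ u := fun h => hz1 (mul_eq_right.mp h)
  have hne2 : u * z ≠ z := fun h => hu1 (mul_eq_right.mp h)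
  rcases h with rfl | rfl | rfl | rfl | rfl | rfl
  · exact hρ
  · exfalso
    have h1 := cancel u q hρu hxu
    apply hne1
    rw [h1] at hq4
    exact (mul_right_cancel hq4).symm
  · exfalso
    have h1 := cancel z r hρz hxz
    apply hne2
    rw [h1] at hr4
    exact (mul_right_cancel hr4).symm
  · exfalso
    have h1 := cancel z (q * r) hρz hxz
    -- `(q r) z = (q (u z) q⁻¹) (q r) = u (q r)`
    have h2 : (q * r) * z = u * (q * r) := by
      calc (q * r) * z = q * (r * z) := by group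
        _ = q * ((u * z) * r) := by rw [hr4]
        _ = (q * u) * z * r := by group
        _ = ((z * u) * q) * z * r := by rw [hq4]
        _ = z * u * (q * z) * r := by group
        _ = z * u * (z * q) * r := by rw [hqz]
        _ = z * (u * z) * q * r := by group
        _ = z * (z * u) * q * r := by rw [hzu]
        _ = (z * z) * u * q * r := by group
        _ = u * (q * r) := by rw [hzz]; group
    rw [h1] at h2
    exact P.ne (mul_right_cancel h2)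
  · exfalso
    have h1 := cancel z (r * q) hρz hxz
    have h2 : (r * q) * z = (u * z) * (r * q) := by
      calc (r * q) * z = r * (q * z) := by group
        _ = r * (z * q) := by rw [hqz]
        _ = (r * z) * q := by group
        _ = ((u * z) * r) * q := by rw [hr4]
        _ = (u * z) * (r * q) := by group
    rw [h1] at h2
    exact hne2 (mul_right_cancel h2).symm
  · exfalso
    have h1 := cancel z (q * r * q) hρz hxz
    have h2 : (q * r * q) * z = u * (q * r * q) := by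
      calc (q * r * q) * z = q * r * (q * z) := by group
        _ = q * r * (z * q) := by rw [hqz]
        _ = q * (r * z) * q := by group
        _ = q * ((u * z) * r) * q := by rw [hr4]
        _ = (q * u) * z * r * q := by group
        _ = ((z * u) * q) * z * r * q := by rw [hq4]
        _ = z * u * (q * z) * r * q := by group
        _ = z * u * (z * q) * r * q := by rw [hqz]
        _ = z * (u * z) * q * r * q := by group
        _ = z * (z * u) * q * r * q := by rw [hzu]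
        _ = (z * z) * u * q * r * q := by group
        _ = u * (q * r * q) := by rw [hzz]; group
    rw [h1] at h2
    exact P.ne (mul_right_cancel h2)

end Orth

end CfsgLib.LargeES
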