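/-
`X / R` is the symmetric group of degree 3, with `R = C_X(V) = O₂(X)`.
-/
import Cfsg.Agent.Lib.LargeES.NormR
import Cfsg.Agent.Lib.PLocal.Core

set_option autoImplicit false
set_option linter.unusedVariables false
set_option linter.unusedSectionVars false

open scoped commutatorElement

namespace CfsgLib.LargeES

open Cfsg

variable {G : Type*} [Group G] [Finite G]

theorem exists_perm_hom (K : Subgroup G) (e : Fin 3 → G) (he : Function.Injective e)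
    (h : ∀ y ∈ K, ∀ i, ∃ j, y * e i * y⁻¹ = e j) :
    ∃ φ : ↥K →* Equiv.Perm (Fin 3), ∀ (y : ↥K) i, (y : G) * e i * (y : G)⁻¹ = e (φ y i) := by
  choose f hf using h
  have hinj : ∀ y (hy : y ∈ K), Function.Injective (f y hy) := by
    intro y hy a b hab
    apply he
    have h1 := hf y hy a
    have h2 := hf y hy b
    rw [hab, ← h2] at h1
    simpa using h1
  let φ₀ : ↥K → Equiv.Perm (Fin 3) := fun y =>
    Equiv.ofBijective (f y y.2) (Finite.injective_iff_bijective.mp (hinj _ y.2))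
  have hφ₀ : ∀ (y : ↥K) i, (y : G) * e i * (y : G)⁻¹ = e (φ₀ y i) := fun y i => hf y y.2 i
  refine ⟨MonoidHom.mk' φ₀ ?_, hφ₀⟩
  intro a b
  refine Equiv.ext fun i => he ?_
  rw [← hφ₀ (a * b) i]
  show _ = e (φ₀ a (φ₀ b i))
  rw [← hφ₀ a, ← hφ₀ b]
  push_cast
  group

private theorem perm3_gen : ∀ π : Equiv.Perm (Fin 3), π = 1 ∨ π = Equiv.swap 1 2 ∨ π = Equiv.swap 0 2 ∨
    π = Equiv.swap 1 2 * Equiv.swap 0 2 ∨ π = Equiv.swap 0 2 * Equiv.swap 1 2 ∨
    π = Equiv.swap 1 2 * Equiv.swap 0 2 * Equiv.swap 1 2 := by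
  decide +kernel

private theorem perm3_comm : ∀ π : Equiv.Perm (Fin 3), π ≠ 1 → ∃ σ : Equiv.Perm (Fin 3),
    σ * π * σ⁻¹ * π⁻¹ ≠ 1 ∧ (σ * π * σ⁻¹ * π⁻¹) ^ 3 = 1 := by
  decide +kernel

namespace Orth

variable {Q S : Subgroup G} {z u : G}

/-- the three involutions of the four-group -/
def ee (z u : G) : Fin 3 → G := ![z, u, z * u]

@[simp] theorem ee_zero : ee z u 0 = z := rfl
@[simp] theorem ee_one : ee z u 1 = u := rfl
@[simp] theorem ee_two : ee z u 2 = z * u := rfl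

theorem ee_inj (P : Orth Q S z u) : Function.Injective (ee z u) := by
  have h1 : z ≠ u := P.ne
  have h2 : z ≠ z * u := fun h => P.u1 (by simpa using h.symm)
  have h3 : u ≠ z * u := fun h => P.z1 (by simpa using h.symm)
  intro a b hab
  fin_cases a <;> fin_cases b <;> first
    | rfl
    | exact absurd hab h1
    | exact absurd hab h2
    | exact absurd hab h3
    | exact absurd hab.symm h1
    | exact absurd hab.symm h2
    | exact absurd hab.symm h3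

theorem ee_mem_four (P : Orth Q S z u) (i : Fin 3) : ee z u i ∈ P.four := by
  fin_cases i
  · exact Or.inr (Or.inl rfl)
  · exact Or.inr (Or.inr (Or.inl rfl))
  · exact Or.inr (Or.inr (Or.inr rfl))

theorem ee_ne (P : Orth Q S z u) (i : Fin 3) : ee z u i ≠ 1 := by
  have h2 : z * u ≠ 1 := fun h => P.ne (by
    have := eq_inv_of_mul_eq_one_left h
    rw [this, P.ui])
  fin_cases i
  · exact P.z1
  · exact P.u1
  · exact h2

theorem conj_ee (P : Orth Q S z u) {y : G} (hy : y ∈ Subgroup.normalizer (P.four : Set G)) (i : Fin 3) :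
    ∃ j, y * ee z u i * y⁻¹ = ee z u j := by
  rw [Subgroup.mem_normalizer_iff] at hy
  have h1 : y * ee z u i * y⁻¹ ∈ P.four := (hy _).mp (P.ee_mem_four i)
  have h2 : y * ee z u i * y⁻¹ ≠ 1 := fun h => P.ee_ne i (by
    have : ee z u i = y⁻¹ * (y * ee z u i * y⁻¹) * y := by group
    rw [this, h]; group)
  rcases h1 with h | h | h | h
  · exact absurd h h2
  · exact ⟨0, h⟩
  · exact ⟨1, h⟩
  · exact ⟨2, h⟩

theorem X_le_N (P : Orth Q S z u) : Q ⊔ S ≤ Subgroup.normalizer (P.four : Set G) := fun x hx =>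
  mem_normalizer_of_conj (P.act_E rfl x hx).1

theorem comm_of_ee {y : G} (P : Orth Q S z u) (h : ∀ i, y * ee z u i * y⁻¹ = ee z u i) :
    y * z = z * y ∧ y * u = u * y := by
  have h0 := h 0
  have h1 := h 1
  exact ⟨mul_inv_eq_iff_eq_mul.mp h0, mul_inv_eq_iff_eq_mul.mp h1⟩

theorem ee_of_comm {y : G} (P : Orth Q S z u) (h1 : y * z = z * y) (h2 : y * u = u * y) (i : Fin 3) :
    y * ee z u i * y⁻¹ = ee z u i := by
  have h3 : y * (z * u) = (z * u) * y := by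
    calc y * (z * u) = (y * z) * u := by group
      _ = (z * y) * u := by rw [h1]
      _ = z * (y * u) := by group
      _ = z * (u * y) := by rw [h2]
      _ = z * u * y := by group
  fin_cases i
  · exact mul_inv_eq_iff_eq_mul.mpr h1
  · exact mul_inv_eq_iff_eq_mul.mpr h2
  · exact mul_inv_eq_iff_eq_mul.mpr h3

theorem mem_cent_four (P : Orth Q S z u) {y : G} :
    y ∈ Subgroup.centralizer (P.four : Set G) ↔ y * z = z * y ∧ y * u = u * y := by
  rw [Subgroup.mem_centralizer_iff]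
  constructor
  · intro h
    exact ⟨(h z (Or.inr (Or.inl rfl))).symm, (h u (Or.inr (Or.inr (Or.inl rfl)))).symm⟩
  · rintro ⟨h1, h2⟩ v hv
    rcases hv with rfl | rfl | rfl | rfl
    · simp
    · exact h1.symm
    · exact h2.symm
    · calc z * u * y = z * (u * y) := by group
        _ = z * (y * u) := by rw [h2]
        _ = (z * y) * u := by group
        _ = (y * z) * u := by rw [h1]
        _ = y * (z * u) := by group

/-- The structure of `X`. -/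
theorem exists_hom (P : Orth Q S z u) {g : G} (hS : S = Q.map (MulAut.conj g).toMonoidHom)
    (hu : u = g * z * g⁻¹) :
    ∃ (φ₀ : ↥(Subgroup.normalizer (P.four : Set G)) →* Equiv.Perm (Fin 3)),
      (∀ (y : ↥(Subgroup.normalizer (P.four : Set G))) i, (y : G) * ee z u i * (y : G)⁻¹ = ee z u (φ₀ y i)) ∧
      (∀ π : Equiv.Perm (Fin 3), ∃ x, ∃ hx : x ∈ Q ⊔ S, φ₀ ⟨x, P.X_le_N hx⟩ = π) := by
  obtain ⟨φ₀, hφ₀⟩ := exists_perm_hom _ (ee z u) P.ee_inj (fun y hy i => P.conj_ee hy i)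
  refine ⟨φ₀, hφ₀, ?_⟩
  obtain ⟨q, hq, hq1⟩ := P.exists_q
  obtain ⟨r, hr, hr1⟩ := P.symm.exists_q
  have hzz := P.hQ.sq
  have huu := P.hS.sq
  have hzu := P.zu
  have hqX : q ∈ Q ⊔ S := Subgroup.mem_sup_left hq
  have hrX : r ∈ Q ⊔ S := Subgroup.mem_sup_right hr
  have hqz : q * z = z * q := P.hQ.cent _ hq
  have hru : r * u = u * r := P.hS.cent _ hr
  have hφq : φ₀ ⟨q, P.X_le_N hqX⟩ = Equiv.swap 1 2 := by
    refine Equiv.ext fun i => P.ee_inj ?_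
    rw [← hφ₀ ⟨q, P.X_le_N hqX⟩ i]
    fin_cases i
    · show q * z * q⁻¹ = ee z u (Equiv.swap 1 2 0)
      have : (Equiv.swap 1 2 : Equiv.Perm (Fin 3)) 0 = 0 := by decide
      rw [this, ee_zero]
      exact mul_inv_eq_iff_eq_mul.mpr hqz
    · show q * u * q⁻¹ = ee z u (Equiv.swap 1 2 1)
      have : (Equiv.swap 1 2 : Equiv.Perm (Fin 3)) 1 = 2 := by decide
      rw [this, ee_two]
      exact hq1
    · show q * (z * u) * q⁻¹ = ee z u (Equiv.swap 1 2 2)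
      have : (Equiv.swap 1 2 : Equiv.Perm (Fin 3)) 2 = 1 := by decide
      rw [this, ee_one]
      calc q * (z * u) * q⁻¹ = (q * z) * u * q⁻¹ := by group
        _ = (z * q) * u * q⁻¹ := by rw [hqz]
        _ = z * (q * u * q⁻¹) := by group
        _ = z * (z * u) := by rw [hq1]
        _ = (z * z) * u := by group
        _ = u := by rw [hzz]; group
  have hφr : φ₀ ⟨r, P.X_le_N hrX⟩ = Equiv.swap 0 2 := by
    refine Equiv.ext fun i => P.ee_inj ?_
    rw [← hφ₀ ⟨r, P.X_le_N hrX⟩ i]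
    fin_cases i
    · show r * z * r⁻¹ = ee z u (Equiv.swap 0 2 0)
      have : (Equiv.swap 0 2 : Equiv.Perm (Fin 3)) 0 = 2 := by decide
      rw [this, ee_two, hr1, hzu]
    · show r * u * r⁻¹ = ee z u (Equiv.swap 0 2 1)
      have : (Equiv.swap 0 2 : Equiv.Perm (Fin 3)) 1 = 1 := by decide
      rw [this, ee_one]
      exact mul_inv_eq_iff_eq_mul.mpr hru
    · show r * (z * u) * r⁻¹ = ee z u (Equiv.swap 0 2 2)
      have : (Equiv.swap 0 2 : Equiv.Perm (Fin 3)) 2 = 0 := by decide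
      rw [this, ee_zero]
      calc r * (z * u) * r⁻¹ = (r * z * r⁻¹) * (r * u * r⁻¹) := by group
        _ = (u * z) * (r * u * r⁻¹) := by rw [hr1]
        _ = (u * z) * u := by
          rw [mul_inv_eq_iff_eq_mul.mpr hru]
        _ = (z * u) * u := by rw [hzu]
        _ = z * (u * u) := by group
        _ = z := by rw [huu]; group
  intro π
  have hmul : ∀ a b, ∀ (ha : a ∈ Q ⊔ S) (hb : b ∈ Q ⊔ S),
      φ₀ ⟨a * b, P.X_le_N ((Q ⊔ S).mul_mem ha hb)⟩ = φ₀ ⟨a, P.X_le_N ha⟩ * φ₀ ⟨b, P.X_le_N hb⟩ := by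
    intro a b ha hb
    rw [← map_mul]
    rfl
  rcases perm3_gen π with rfl | rfl | rfl | rfl | rfl | rfl
  · exact ⟨1, Subgroup.one_mem _, map_one φ₀⟩
  · exact ⟨q, hqX, hφq⟩
  · exact ⟨r, hrX, hφr⟩
  · exact ⟨q * r, (Q ⊔ S).mul_mem hqX hrX, by rw [hmul q r hqX hrX, hφq, hφr]⟩
  · exact ⟨r * q, (Q ⊔ S).mul_mem hrX hqX, by rw [hmul r q hrX hqX, hφq, hφr]⟩
  · refine ⟨q * r * q, (Q ⊔ S).mul_mem ((Q ⊔ S).mul_mem hqX hrX) hqX, ?_⟩
    rw [hmul (q * r) q ((Q ⊔ S).mul_mem hqX hrX) hqX, hmul q r hqX hrX, hφq, hφr]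

/-- an element of `X` centralizing the four-group lies in `R`, and the converse -/
theorem X_cent_eq (P : Orth Q S z u) {g : G} (hS : S = Q.map (MulAut.conj g).toMonoidHom)
    (hu : u = g * z * g⁻¹) :
    WW S z ⊔ WW Q u = (Q ⊔ S) ⊓ Subgroup.centralizer (P.four : Set G) := by
  apply le_antisymm
  · intro x hx
    refine ⟨?_, P.mem_cent_four.mpr ⟨P.R_comm_z hx, P.R_comm_u hx⟩⟩
    have hle : WW S z ⊔ WW Q u ≤ Q ⊔ S := by
      apply sup_le
      · exact le_trans inf_le_left le_sup_right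
      · exact le_trans inf_le_left le_sup_left
    exact hle hx
  · rintro x ⟨hx, hc⟩
    obtain ⟨h1, h2⟩ := P.mem_cent_four.mp hc
    exact P.inter_le_R hS hu hx h1 h2

theorem R_isP (P : Orth Q S z u) : IsPGroup 2 ↥(WW S z ⊔ WW Q u) := by
  rintro ⟨x, hx⟩
  refine ⟨2, ?_⟩
  apply Subtype.ext
  show x ^ 2 ^ 2 = 1
  have h1 := P.E_sq (P.R_sq hx)
  have e : x ^ 2 ^ 2 = x ^ 2 * x ^ 2 := by
    rw [← pow_add]
    norm_num
  rw [e, h1]

/-- elements of the centralizer of the four-group normalize `X`. -/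
theorem cent_norm_X (P : Orth Q S z u) {c x : G} (hcz : c * z = z * c) (hcu : c * u = u * c) (hx : x ∈ Q ⊔ S) :
    c * x * c⁻¹ ∈ Q ⊔ S := by
  have hle : Q ⊔ S ≤ (Q ⊔ S).comap (MulAut.conj c).toMonoidHom := by
    apply sup_le
    · intro v hv
      exact Subgroup.mem_sup_left (P.nQ c hcz v hv)
    · intro v hv
      exact Subgroup.mem_sup_right (P.nS c hcu v hv)
  exact hle hx

theorem comm_eq_one_of_two_three {K : Type*} [Group K] {a : K} {k : ℕ} (h1 : a ^ 2 ^ k = 1) (h2 : a ^ 3 = 1) :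
    a = 1 := by
  have h3 := orderOf_dvd_of_pow_eq_one h1
  have h4 := orderOf_dvd_of_pow_eq_one h2
  have h5 : Nat.Coprime (2 ^ k) 3 := Nat.Coprime.pow_left k (by norm_num)
  have h6 : orderOf a ∣ 1 := by
    have := Nat.dvd_gcd h3 h4
    rwa [h5.gcd_eq_one] at this
  exact orderOf_eq_one_iff.mp (Nat.dvd_one.mp h6)

end Orth

open Orth in
theorem main_5430 (Q : Subgroup G) (hQ : Cfsg.IsLargeExtraspecial Q) (z : G)
    (hz : ((Subgroup.center ↥Q).map Q.subtype) = Subgroup.zpowers z) (hz2 : orderOf z = 2)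
    (w : ℕ) (hw : 2 ≤ w) (hcard : Nat.card ↥Q = 2 ^ (2 * w + 1)) (g : G)
    (hgH : g ∉ Subgroup.centralizer ({z} : Set G)) (hgQ : g * z * g⁻¹ ∈ Q) (V X R E : Subgroup G)
    (hV : V = Subgroup.closure ({z, g * z * g⁻¹} : Set G))
    (hX : X = Q ⊔ (Q).map (MulAut.conj g).toMonoidHom)
    (hR : R = ((Q).map (MulAut.conj g).toMonoidHom ⊓ Subgroup.centralizer ({z} : Set G)) ⊔ (Q ⊓ Subgroup.centralizer ({g * z * g⁻¹} : Set G)))
    (hE : E = Q ⊓ (Q).map (MulAut.conj g).toMonoidHom) :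
    R = X ⊓ Subgroup.centralizer (V : Set G) ∧ R = (Cfsg.pCore 2 ↥X).map X.subtype ∧ (∃ h : (R.subgroupOf X).Normal, Nonempty (↥X ⧸ R.subgroupOf X ≃* Equiv.Perm (Fin 3))) ∧ Subgroup.normalizer (V : Set G) = X ⊔ (Subgroup.centralizer ({z} : Set G) ⊓ Subgroup.centralizer (V : Set G)) ∧ (∀ y ∈ Subgroup.normalizer (V : Set G), ∀ x ∈ X, y * x * y⁻¹ ∈ X) ∧ R ≤ Subgroup.centralizer ({z} : Set G) ⊓ Subgroup.centralizer (V : Set G) ∧ (∀ x ∈ X, ∀ c ∈ Subgroup.centralizer ({z} : Set G) ⊓ Subgroup.centralizer (V : Set G), x * c * x⁻¹ * c⁻¹ ∈ R) ∧ X ⊓ (Subgroup.centralizer ({z} : Set G) ⊓ Subgroup.centralizer (V : Set G)) = R := by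
  have P := orth_of_large Q hQ z hz hz2 w hw hcard g hgH hgQ
  obtain ⟨S, hS⟩ : ∃ S, S = Q.map (MulAut.conj g).toMonoidHom := ⟨_, rfl⟩
  obtain ⟨u, hu⟩ : ∃ u, u = g * z * g⁻¹ := ⟨_, rfl⟩
  rw [← hS, ← hu] at P
  rw [← hS] at hX hR
  rw [← hu] at hV hR
  have hRW : R = WW S z ⊔ WW Q u := hR
  have hVf : V = P.four := by
    ext x
    rw [hV, P.mem_four_iff]
  subst hX
  subst hVf
  have hR1 : R = (Q ⊔ S) ⊓ Subgroup.centralizer (P.four : Set G) := by
    rw [hRW]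
    exact P.X_cent_eq hS hu
  have hRX : R ≤ Q ⊔ S := by
    rw [hR1]; exact inf_le_left
  have hcz : ∀ c, c ∈ Subgroup.centralizer ({z} : Set G) ⊓ Subgroup.centralizer (P.four : Set G) ↔
      c * z = z * c ∧ c * u = u * c := by
    intro c
    constructor
    · rintro ⟨-, h⟩
      exact P.mem_cent_four.mp h
    · intro h
      refine ⟨Subgroup.mem_centralizer_singleton_iff.mpr h.1, P.mem_cent_four.mpr h⟩
  have hinf : (Q ⊔ S) ⊓ (Subgroup.centralizer ({z} : Set G) ⊓ Subgroup.centralizer (P.four : Set G)) = R := by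
    rw [hR1]
    apply le_antisymm
    · rintro x ⟨h1, -, h2⟩
      exact ⟨h1, h2⟩
    · rintro x ⟨h1, h2⟩
      exact ⟨h1, (hcz x).mpr (P.mem_cent_four.mp h2)⟩
  obtain ⟨φ₀, hφ₀, hsurj₀⟩ := P.exists_hom hS hu
  -- the homomorphism on `X`
  let φ : ↥(Q ⊔ S) →* Equiv.Perm (Fin 3) := φ₀.comp (Subgroup.inclusion P.X_le_N)
  have hφ : ∀ (x : ↥(Q ⊔ S)) i, (x : G) * ee z u i * (x : G)⁻¹ = ee z u (φ x i) := fun x i =>
    hφ₀ (Subgroup.inclusion P.X_le_N x) i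
  have hsurj : Function.Surjective φ := by
    intro π
    obtain ⟨x, hx, h⟩ := hsurj₀ π
    exact ⟨⟨x, hx⟩, h⟩
  have hker : ∀ x : ↥(Q ⊔ S), φ x = 1 ↔ (x : G) ∈ R := by
    intro x
    rw [hR1]
    constructor
    · intro h
      refine ⟨x.2, P.mem_cent_four.mpr (P.comm_of_ee fun i => ?_)⟩
      rw [hφ x i, h]
      rfl
    · rintro ⟨-, h⟩
      obtain ⟨h1, h2⟩ := P.mem_cent_four.mp h
      refine Equiv.ext fun i => P.ee_inj ?_
      rw [← hφ x i]
      exact P.ee_of_comm h1 h2 i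
  have hker2 : φ.ker = R.subgroupOf (Q ⊔ S) := by
    ext x
    rw [MonoidHom.mem_ker, Subgroup.mem_subgroupOf]
    exact hker x
  have hN : (R.subgroupOf (Q ⊔ S)).Normal := hker2 ▸ φ.normal_ker
  have hdec : ∀ y ∈ Subgroup.normalizer (P.four : Set G), ∃ x ∈ Q ⊔ S, ∃ c, c * z = z * c ∧ c * u = u * c ∧ y = x * c := by
    intro y hy
    obtain ⟨x, hx, hπ⟩ := hsurj₀ (φ₀ ⟨y, hy⟩)
    refine ⟨x, hx, x⁻¹ * y, ?_⟩
    have key : ∀ i, (x⁻¹ * y) * ee z u i * (x⁻¹ * y)⁻¹ = ee z u i := by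
      intro i
      have h1 := hφ₀ ⟨y, hy⟩ i
      have h2 := hφ₀ ⟨x, P.X_le_N hx⟩ i
      rw [hπ] at h2
      have h3 : x * ee z u i * x⁻¹ = y * ee z u i * y⁻¹ := by
        rw [show y * ee z u i * y⁻¹ = ee z u (φ₀ ⟨y, hy⟩ i) from h1]
        exact h2
      calc (x⁻¹ * y) * ee z u i * (x⁻¹ * y)⁻¹ = x⁻¹ * (y * ee z u i * y⁻¹) * x := by group
        _ = x⁻¹ * (x * ee z u i * x⁻¹) * x := by rw [h3]
        _ = ee z u i := by group
    obtain ⟨h1, h2⟩ := P.comm_of_ee key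
    exact ⟨h1, h2, by group⟩
  have hnorm : ∀ y ∈ Subgroup.normalizer (P.four : Set G), ∀ x ∈ Q ⊔ S, y * x * y⁻¹ ∈ Q ⊔ S := by
    intro y hy x hx
    obtain ⟨x₁, hx₁, c, h1, h2, rfl⟩ := hdec y hy
    have h3 := P.cent_norm_X h1 h2 hx
    have e : x₁ * c * x * (x₁ * c)⁻¹ = x₁ * (c * x * c⁻¹) * x₁⁻¹ := by group
    rw [e]
    exact (Q ⊔ S).mul_mem ((Q ⊔ S).mul_mem hx₁ h3) ((Q ⊔ S).inv_mem hx₁)
  refine ⟨hR1, ?_, ⟨hN, ⟨?_⟩⟩, ?_, hnorm, ?_, ?_, hinf⟩
  · -- the `2`-core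
    apply le_antisymm
    · intro ρ hρ
      have hP : IsPGroup 2 ↥(R.subgroupOf (Q ⊔ S)) := by
        rintro ⟨⟨x, hx⟩, hx2⟩
        have hx3 : x ∈ R := hx2
        obtain ⟨k, hk⟩ := (by subst hRW; exact P.R_isP : IsPGroup 2 ↥R) ⟨x, hx3⟩
        refine ⟨k, ?_⟩
        apply Subtype.ext
        apply Subtype.ext
        simpa using congrArg Subtype.val hk
      have hle := CfsgLib.PLocal.le_pCore_of_normal (p := 2) _ hN hP
      exact ⟨⟨ρ, hRX hρ⟩, hle hρ, rfl⟩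
    · rintro _ ⟨x, hx, rfl⟩
      show (x : G) ∈ R
      rw [← hker]
      by_contra hne
      obtain ⟨σ, hσ1, hσ2⟩ := perm3_comm _ hne
      obtain ⟨s, rfl⟩ := hsurj σ
      have hnp : (Cfsg.pCore 2 ↥(Q ⊔ S)).Normal := CfsgLib.PLocal.pCore_normal'
      have hc : s * x * s⁻¹ * x⁻¹ ∈ Cfsg.pCore 2 ↥(Q ⊔ S) :=
        Subgroup.mul_mem _ (hnp.conj_mem x hx s) (Subgroup.inv_mem _ hx)
      obtain ⟨k, hk⟩ := (CfsgLib.PLocal.pCore_isPGroup (p := 2) (G := ↥(Q ⊔ S))) ⟨_, hc⟩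
      have hk2 : (s * x * s⁻¹ * x⁻¹) ^ 2 ^ k = 1 := by
        simpa using congrArg Subtype.val hk
      have hk3 : (φ s * φ x * (φ s)⁻¹ * (φ x)⁻¹) ^ 2 ^ k = 1 := by
        rw [← map_inv, ← map_inv, ← map_mul, ← map_mul, ← map_mul, ← map_pow, hk2, map_one]
      exact hσ1 (comm_eq_one_of_two_three hk3 hσ2)
  · exact (QuotientGroup.quotientMulEquivOfEq hker2.symm).trans (QuotientGroup.quotientKerEquivOfSurjective φ hsurj)
  · apply le_antisymm
    · intro y hy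
      obtain ⟨x₁, hx₁, c, h1, h2, rfl⟩ := hdec y hy
      exact Subgroup.mul_mem _ (Subgroup.mem_sup_left hx₁) (Subgroup.mem_sup_right ((hcz c).mpr ⟨h1, h2⟩))
    · apply sup_le P.X_le_N
      intro c hc
      obtain ⟨h1, h2⟩ := (hcz c).mp hc
      apply mem_normalizer_of_conj
      intro v hv
      have := P.mem_cent_four.mpr ⟨h1, h2⟩
      have e := (Subgroup.mem_centralizer_iff.mp this) v hv
      have e2 : c * v * c⁻¹ = v := mul_inv_eq_iff_eq_mul.mpr e.symm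
      rw [e2]
      exact hv
  · intro ρ hρ
    exact (hcz ρ).mpr ⟨by subst hRW; exact P.R_comm_z hρ, by subst hRW; exact P.R_comm_u hρ⟩
  · intro x hx c hc
    obtain ⟨h1, h2⟩ := (hcz c).mp hc
    have hcx := P.cent_norm_X h1 h2 (Q ⊔ S |>.inv_mem hx)
    have hmem : x * c * x⁻¹ * c⁻¹ ∈ Q ⊔ S := by
      have e : x * c * x⁻¹ * c⁻¹ = x * (c * x⁻¹ * c⁻¹) := by group
      rw [e]
      exact (Q ⊔ S).mul_mem hx hcx
    rw [hR1]
    refine ⟨hmem, Subgroup.mem_centralizer_iff.mpr ?_⟩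
    have hcf := P.mem_cent_four.mpr ⟨h1, h2⟩
    intro t ht
    -- `x⁻¹ t x ∈ V`, and `c` commutes with it
    have hxi : x⁻¹ * t * x ∈ P.four := by
      have := (P.act_E rfl x⁻¹ ((Q ⊔ S).inv_mem hx)).1 t ht
      rwa [inv_inv] at this
    have h3 : (x⁻¹ * t * x) * c = c * (x⁻¹ * t * x) := (Subgroup.mem_centralizer_iff.mp hcf) _ hxi
    have h4 : t * c = c * t := (Subgroup.mem_centralizer_iff.mp hcf) _ ht
    have h5 : t * c⁻¹ = c⁻¹ * t := by
      calc t * c⁻¹ = c⁻¹ * (c * t) * c⁻¹ := by group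
        _ = c⁻¹ * (t * c) * c⁻¹ := by rw [h4]
        _ = c⁻¹ * t := by group
    calc t * (x * c * x⁻¹ * c⁻¹) = x * ((x⁻¹ * t * x) * c) * x⁻¹ * c⁻¹ := by group
      _ = x * (c * (x⁻¹ * t * x)) * x⁻¹ * c⁻¹ := by rw [h3]
      _ = x * c * x⁻¹ * (t * c⁻¹) := by group
      _ = x * c * x⁻¹ * (c⁻¹ * t) := by rw [h5]
      _ = x * c * x⁻¹ * c⁻¹ * t := by group

end CfsgLib.LargeES
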