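/-
The subgroup `R` attached to two orthogonal central involutions.
-/
import Cfsg.Agent.Lib.LargeES.OrthR

set_option autoImplicit false
set_option linter.unusedVariables false
set_option linter.unusedSectionVars false

open scoped commutatorElement

namespace CfsgLib.LargeES

open Cfsg

variable {G : Type*} [Group G] [Finite G]

theorem main_5431 (Q : Subgroup G) (hQ : Cfsg.IsLargeExtraspecial Q) (z : G)
    (hz : ((Subgroup.center ↥Q).map Q.subtype) = Subgroup.zpowers z) (hz2 : orderOf z = 2)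
    (w : ℕ) (hw : 2 ≤ w) (hcard : Nat.card ↥Q = 2 ^ (2 * w + 1)) (g : G)
    (hgH : g ∉ Subgroup.centralizer ({z} : Set G)) (hgQ : g * z * g⁻¹ ∈ Q) (V X R E : Subgroup G)
    (hV : V = Subgroup.closure ({z, g * z * g⁻¹} : Set G))
    (hX : X = Q ⊔ (Q).map (MulAut.conj g).toMonoidHom)
    (hR : R = ((Q).map (MulAut.conj g).toMonoidHom ⊓ Subgroup.centralizer ({z} : Set G)) ⊔ (Q ⊓ Subgroup.centralizer ({g * z * g⁻¹} : Set G)))
    (hE : E = Q ⊓ (Q).map (MulAut.conj g).toMonoidHom) :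
    (Subgroup.center ↥R).map R.subtype = V ∧ E ≤ (Subgroup.upperCentralSeries ↥R 2).map R.subtype ∧ Subgroup.upperCentralSeries ↥R 3 = ⊤ ∧ Cfsg.IsElementaryAbelian 2 E ∧ (∀ x ∈ R, ∀ y ∈ R, x * y * x⁻¹ * y⁻¹ ∈ E ∧ x ^ 2 ∈ E) ∧ ((Q).map (MulAut.conj g).toMonoidHom ⊓ Subgroup.centralizer ({z} : Set G)) ⊓ (Q ⊓ Subgroup.centralizer ({g * z * g⁻¹} : Set G)) = E ∧ ⁅X, E⁆ ≤ V := by
  have P := orth_of_large Q hQ z hz hz2 w hw hcard g hgH hgQ
  generalize Q.map (MulAut.conj g).toMonoidHom = S at *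
  generalize g * z * g⁻¹ = u at *
  have hRW : R = Orth.WW S z ⊔ Orth.WW Q u := hR
  subst hV hX hE
  have hEle : Q ⊓ S ≤ R := by
    rw [hRW]
    exact le_trans P.E_le_W le_sup_left
  have hRX : R ≤ Q ⊔ S := by
    rw [hRW]
    apply sup_le
    · exact le_trans inf_le_left le_sup_right
    · exact le_trans inf_le_left le_sup_left
  have hcen : (Subgroup.center ↥R).map R.subtype = Subgroup.closure ({z, u} : Set G) := by
    subst hRW
    exact P.center_R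
  have hE2 : Q ⊓ S ≤ (Subgroup.upperCentralSeries ↥R 2).map R.subtype := by
    intro e he
    refine ⟨⟨e, hEle he⟩, ?_, rfl⟩
    show (⟨e, hEle he⟩ : ↥R) ∈ Subgroup.upperCentralSeries ↥R 2
    rw [Subgroup.mem_upperCentralSeries_succ_iff]
    rintro ⟨y, hy⟩
    rw [Subgroup.upperCentralSeries_one]
    have h1 := (P.act_E rfl y (hRX hy)).2 e he
    have h2 : e * y * e⁻¹ * y⁻¹ ∈ Subgroup.closure ({z, u} : Set G) := by
      rw [P.mem_four_iff]
      have e1 : e * y * e⁻¹ * y⁻¹ = (y * e * y⁻¹ * e⁻¹)⁻¹ := by group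
      rw [e1]
      exact P.four.inv_mem h1
    rw [← hcen] at h2
    obtain ⟨c, hc, hcc⟩ := h2
    have : ⁅(⟨e, hEle he⟩ : ↥R), (⟨y, hy⟩ : ↥R)⁆ = c := by
      apply Subtype.ext
      exact hcc.symm
    rw [this]
    exact hc
  refine ⟨hcen, hE2, ?_, ?_, ?_, ?_, ?_⟩
  · rw [eq_top_iff]
    rintro ⟨x, hx⟩ -
    show (⟨x, hx⟩ : ↥R) ∈ Subgroup.upperCentralSeries ↥R 3
    rw [Subgroup.mem_upperCentralSeries_succ_iff]
    rintro ⟨y, hy⟩
    have h1 : x * y * x⁻¹ * y⁻¹ ∈ Q ⊓ S := by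
      subst hRW
      exact P.R_comm hx hy
    obtain ⟨c, hc, hcc⟩ := hE2 h1
    have : ⁅(⟨x, hx⟩ : ↥R), (⟨y, hy⟩ : ↥R)⁆ = c := by
      apply Subtype.ext
      exact hcc.symm
    rw [this]
    exact hc
  · refine ⟨⟨⟨fun a b => Subtype.ext (P.E_abelian a.2 b.2)⟩⟩, fun a ha => ?_⟩
    rw [pow_two]
    exact P.E_sq ha
  · intro x hx y hy
    subst hRW
    exact ⟨P.R_comm hx hy, P.R_sq hx⟩
  · apply le_antisymm
    · intro x hx
      exact ⟨hx.2.1, hx.1.1⟩
    · intro x hx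
      exact ⟨P.E_le_W hx, P.E_le_Q2 hx⟩
  · rw [Subgroup.commutator_le]
    intro x hx e he
    rw [commutatorElement_def, P.mem_four_iff]
    exact (P.act_E rfl x hx).2 e he

end CfsgLib.LargeES
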